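/-
Conjugacy into similarity groups of forms.
-/
import Cfsg.Agent.Classical.EluG
import Cfsg.Agent.Cls.RepO
import Cfsg.Agent.Geom.TvGen
import Cfsg.Agent.Geom.Disc

set_option autoImplicit false

namespace CF.Classical

open Module CF.Cls CF.Geom Polynomial Cfsg.Geo

theorem qq_two_mul (q m : ℕ) : qq q (2 * m) = (∏ i ∈ Finset.range m, (q ^ (2 * i + 1) - 1)) *
    ∏ i ∈ Finset.range m, (q ^ (2 * (i + 1)) - 1) := by
  induction m with
  | zero => rfl
  | succ m ih =>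
    rw [qq] at ih ⊢
    rw [mul_add 2 m, mul_one, Finset.prod_range_succ, Finset.prod_range_succ, ih,
      Finset.prod_range_succ, Finset.prod_range_succ, mul_add 2 m]
    ring

theorem exists_odd_of_dvd {q r m : ℕ} (hr : r.Prime)
    (h : r ∣ ∏ i ∈ Finset.range m, (q ^ (2 * i + 1) - 1)) :
    ∃ j, Odd j ∧ j < 2 * m ∧ r ∣ q ^ j - 1 := by
  obtain ⟨i, hi, h⟩ := (hr.prime.dvd_finsetProd_iff _).1 h
  exact ⟨_, odd_two_mul_add_one i, by rw [Finset.mem_range] at hi; omega, h⟩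

variable {F V W : Type*} [Field F] [AddCommGroup V] [Module F V] [FiniteDimensional F V]
  [AddCommGroup W] [Module F W] [FiniteDimensional F W] {σ : F →+* F} {r : ℕ} {f : End F V}

theorem sim_of_nonpow (hr : r.Prime) {z : F} (hz : ∀ b : F, b ^ r ≠ z) {g : End F W}
    (hf : f ^ r = algebraMap F _ z) (hg : g ^ r = algebraMap F _ z)
    (h : finrank F V = finrank F W) : Sim f g := by
  obtain ⟨k, h1, h2, -⟩ := ed_of_nonpow hr hz hf
  obtain ⟨l, h3, h4, -⟩ := ed_of_nonpow hr hz hg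
  obtain rfl : k = l := Nat.eq_of_mul_eq_mul_right hr.pos (by rw [h1, h3, h])
  exact sim_iff_ed.2 (h2.trans h4.symm)

theorem charpoly_constr {ι : Type*} [Fintype ι] [DecidableEq ι] (b : Basis ι F V) (ε : ι → F) :
    (b.constr F fun i => ε i • b i).charpoly = ∏ i, (X - C (ε i)) := by
  rw [← LinearMap.charpoly_toMatrix _ b, ← Matrix.charpoly_diagonal]
  congr 1
  ext i j
  simp [LinearMap.toMatrix_apply, Matrix.diagonal_apply, Finsupp.single_apply, eq_comm]
  grind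

theorem constr_sq {ι : Type*} (b : Basis ι F V) {ε : ι → F} (h : ∀ i, ε i * ε i = 1) :
    (b.constr F fun i => ε i • b i) ^ 2 = 1 := b.ext fun i => by simp [sq, smul_smul, h]

theorem exists_charpoly_of_sq (h : f ^ 2 = 1) (h2 : (2 : F) ≠ 0) :
    ∃ ε : Fin (finrank F V) → F, (∀ i, ε i * ε i = 1) ∧ f.charpoly = ∏ i, (X - C (ε i)) := by
  have h1 : ∀ a ∈ ed f, ∃ c : F, c * c = 1 ∧ a = X - C c := fun a ha => by
    have h3 := (aeval_eq_zero_iff_ed f ((X - C 1) * (X - C (-1)))).1 (by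
      simp [mul_add, sub_mul, ← sq, h]) a ha
    rcases (ss_of_pow_eq_one (by simpa using h2) h a ha).prime.dvd_or_dvd h3 with h3 | h3 <;>
      exact ⟨_, by simp, eq_of_monic_of_associated (ed_isPP f a ha).monic (monic_X_sub_C _)
        ((ss_of_pow_eq_one (by simpa using h2) h a ha).associated_of_dvd (irreducible_X_sub_C _) h3)⟩
  obtain ⟨n, a, ha⟩ := exists_fin_map_eq (ed f)
  choose ε h3 h4 using fun i => h1 (a i) (ha ▸ Multiset.mem_map_of_mem _ (Finset.mem_univ_val i))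
  obtain rfl : n = finrank F V := by
    simp [finrank_eq_ed f, ← ha, funext h4, List.sum_ofFn]
  exact ⟨ε, h3, by simp [charpoly_eq_ed, ← ha, funext h4, List.prod_ofFn]⟩

theorem exists_diag_sim (h : f ^ 2 = 1) (h2 : (2 : F) ≠ 0) (b : Basis (Fin (finrank F V)) F W) :
    ∃ ε : Fin (finrank F V) → F, (∀ i, ε i * ε i = 1) ∧ Sim (b.constr F fun i => ε i • b i) f := by
  obtain ⟨ε, h3, h4⟩ := exists_charpoly_of_sq h h2
  exact ⟨ε, h3, (ss_of_pow_eq_one (by simpa using h2) (constr_sq b h3)).sim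
    (ss_of_pow_eq_one (by simpa using h2) h) (by rw [charpoly_constr, h4])⟩

/-- `f` is similar to a similarity of `B`. -/
def SimE (B : V →ₛₗ[σ] V →ₗ[F] F) (f : End F V) : Prop :=
  ∃ (y : End F V) (c : Fˣ), (∀ u v, B (y u) (y v) = c * B u v) ∧ Sim y f

section matrix

variable {ι : Type} [Fintype ι] [DecidableEq ι] {H : Subgroup (GL ι F)}
  {B : (ι → F) →ₛₗ[σ] (ι → F) →ₗ[F] F}

theorem inC_iff_simE (hH : ∀ g, g ∈ H ↔ glEquiv ι F g ∈ SimG B) {f : End F (ι → F)}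
    (hf : IsUnit f) : InC H f ↔ SimE B f := by
  refine ⟨fun ⟨y, hy, h⟩ => ?_, fun ⟨y, c, hy, h⟩ => ?_⟩
  · obtain ⟨c, hc⟩ := (hH y).1 hy
    exact ⟨_, c, hc, h⟩
  · obtain ⟨A, rfl⟩ := Matrix.toLin'.surjective y
    obtain ⟨A, rfl⟩ := Matrix.isUnit_toLin'_iff.1 (h.isUnit_iff.2 hf)
    exact ⟨A, (hH A).2 ⟨c, hy⟩, h⟩

theorem forall_ordP_inC_iff (hH : ∀ g, g ∈ H ↔ glEquiv ι F g ∈ SimG B) :
    (∀ f, OrdP r f → InC H f) ↔ ∀ f, OrdP r f → SimE B f :=
  forall_congr' fun _ => forall_congr' fun hf => inC_iff_simE hH hf.isUnit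

theorem mem_quadSim_iff (h2 : (2 : F) ≠ 0) (Q : QuadraticForm F (ι → F)) (g : GL ι F) :
    g ∈ quadSimilarityGroup Q ↔ glEquiv ι F g ∈ SimG (QuadraticMap.polarBilin Q) :=
  exists_congr fun c => ⟨fun h u v => by
    simp only [QuadraticMap.polarBilin_apply_apply, QuadraticMap.polar, glEquiv_apply,
      ← Matrix.mulVec_add, h]; ring, fun h v => mul_left_cancel₀ h2 (by
    have := h v v
    simp only [QuadraticMap.polarBilin_apply_apply, polar_self', glEquiv_apply] at this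
    linear_combination this)⟩

theorem dvd_of_dvd_relIndex [Fintype F] (p : ℕ) [hp : Fact p.Prime] [CharP F p] {n : ℕ}
    {H : Subgroup (GL (Fin n) F)} {G : Subgroup ((Fin n → F) ≃ₗ[F] (Fin n → F))}
    (hG : ∀ g, glEquiv _ F g ∈ G → g ∈ H) (hr : r.Prime) (hrp : r ≠ p)
    (h : r ∣ H.relIndex (specialLinear (Fin n) F)) {a b : ℕ} (ha : a ∣ Nat.card G)
    (hb : qq (Fintype.card F) n = b * a) : r ∣ b := by
  have h1 := index_mul_card_dvd (H₀ := G.map (glEquiv _ F).symm.toMonoidHom) (H := H) (by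
    rintro _ ⟨g, hg, rfl⟩; exact hG _ (by simpa using hg))
  rw [Subgroup.card_map_of_injective (glEquiv _ F).symm.injective, card_GL_eq_qq, hb,
    ← mul_assoc] at h1
  have h0 : 0 < a := Nat.pos_of_mul_pos_left (hb ▸ qq_pos Fintype.one_lt_card n)
  refine (hr.dvd_mul.1 (h.trans (Nat.dvd_of_mul_dvd_mul_right h0
    ((mul_dvd_mul_left _ ha).trans h1)))).resolve_left fun h2 => hrp ?_
  obtain ⟨m, -, hm⟩ := FiniteField.card F p
  rw [hm, ← pow_mul] at h2
  exact (Nat.prime_dvd_prime_iff_eq hr hp.out).1 (hr.dvd_of_dvd_pow h2)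

end matrix

variable {B : V →ₛₗ[σ] V →ₗ[F] F} {ε : F}

theorem SimE.of_smul {c : F} (hc : c ≠ 0) (h : SimE B (c • f)) : SimE B f := by
  obtain ⟨y, d, hy, e, he⟩ := h
  refine ⟨c⁻¹ • y, Units.mk0 (σ c⁻¹ * c⁻¹) (by simp [hc]) * d, fun u v => by
    simp [hy]; ring, e, fun v => ?_⟩
  simp [he, smul_smul, hc]

theorem mult_pow_eq_one [Nontrivial V] (h : EH σ ε B) {y : End F V} {c : F}
    (hy : ∀ u v, B (y u) (y v) = c * B u v) {m : ℕ} (hm : y ^ m = 1) : c ^ m = 1 := by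
  have h1 : ∀ k u v, B ((y ^ k) u) ((y ^ k) v) = c ^ k * B u v := fun k => by
    induction k with
    | zero => simp
    | succ k ih => intro u v; rw [pow_succ', End.mul_apply, End.mul_apply, hy, ih]; ring
  obtain ⟨u, hu⟩ := exists_ne (0 : V)
  obtain ⟨v, hv⟩ := not_forall.1 (mt (h.nondeg u) hu)
  exact (mul_eq_right₀ hv).1 (by simpa [hm] using (h1 m u v).symm)

theorem SimE.exists_pres [Nontrivial V] (h : EH σ ε B) (hs : SimE B f) (hf : f ^ r = 1)
    (hr : ∀ c : F, c ^ r = 1 → c = 1) : ∃ y, Pres B y ∧ Sim y f := by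
  obtain ⟨y, c, hy, h1⟩ := hs
  have h2 := (h1.aeval_eq_zero_iff (X ^ r - 1)).2 (by simp [hf])
  rw [map_sub, map_pow, aeval_X, map_one, sub_eq_zero] at h2
  exact ⟨y, fun u v => by rw [hy, hr _ (mult_pow_eq_one h hy h2), one_mul], h1⟩

theorem simE_of_sq {B : LinearMap.BilinForm F V} {m : ℕ} (b : Basis (Fin m ⊕ Fin m) F V)
    {s t t' : Fin m → F} {z : F} (hz : ∀ c, c ^ 2 ≠ z) (hf : f ^ 2 = algebraMap F _ z)
    (h1 : ∀ i, s i * s i + t i * t' i = z) {δ : Fˣ} (h2 : ∀ k l,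
      B (Sum.elim (fun i => s i • b (.inl i) + t i • b (.inr i))
        (fun i => t' i • b (.inl i) - s i • b (.inr i)) k) (b l) =
      δ * B (b k) (Sum.elim (fun i => s i • b (.inl i) + t i • b (.inr i))
        (fun i => t' i • b (.inl i) - s i • b (.inr i)) l)) : SimE B f := by
  let y := b.constr F (Sum.elim (fun i => s i • b (.inl i) + t i • b (.inr i))
    (fun i => t' i • b (.inl i) - s i • b (.inr i)))
  have h3 : y ^ 2 = algebraMap F _ z := b.ext fun k => by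
    rw [Module.algebraMap_end_apply]
    rcases k with i | i <;> simp only [y, sq, End.mul_apply, Basis.constr_basis, Sum.elim_inl,
      Sum.elim_inr, map_add, map_sub, map_smul, ← h1 i] <;> module
  have h4 : ∀ u v, B (y u) v = δ * B u (y v) := fun u v => DFunLike.congr_fun (DFunLike.congr_fun
    (LinearMap.ext_basis b b (B := B.compl₁₂ y .id) (B' := (δ : F) • B.compl₁₂ .id y)
      fun k l => by simpa [y] using h2 k l) u) v
  refine ⟨y, δ * Units.mk0 z fun h => hz 0 (by simp [h]), fun u v => ?_,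
    sim_of_nonpow Nat.prime_two hz h3 hf rfl⟩
  rw [h4, ← End.mul_apply, ← sq, h3]
  simp [mul_assoc]

theorem simE_alt_of_sq {B : LinearMap.BilinForm F V} (hB : B.Nondegenerate) (hA : B.IsAlt) {z : F}
    (hz : ∀ c, c ^ 2 ≠ z) (hf : f ^ 2 = algebraMap F _ z) : SimE B f := by
  obtain ⟨m, e, e', h1, h2⟩ := exists_symp_frame hB hA
  obtain ⟨b, hb⟩ := h1.exists_basis' (isWittPair_alt B hB hA) (by simpa using h2)
  refine simE_of_sq b (s := 0) (t := 1) (t' := fun _ => z) hz hf (by simp) (δ := -1) ?_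
  have h3 : ∀ i j, B (e' i) (e j) = -B (e j) (e' i) := fun i j => (hA.neg_eq _ _).symm
  rintro (i | i) (j | j) <;> simp [hb, h1.ee, h1.ff, h3, h1.ef, eq_comm] <;> split_ifs <;> simp

theorem simE_symm_of_sq [Finite F] (h2 : (2 : F) ≠ 0) {B : LinearMap.BilinForm F V}
    (h : EH (RingHom.id F) 1 B) {z : F} (hf : f ^ 2 = algebraMap F _ z)
    (hz : z = 1 ∨ ∀ c, c ^ 2 ≠ z) : SimE B f := by
  have := invertibleOfNonzero h2
  obtain ⟨b, hb⟩ := LinearMap.BilinForm.exists_orthogonal_basis (B := B) (h.isSymm h)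
  rcases hz with rfl | hz
  · obtain ⟨ε, h3, h4⟩ := exists_diag_sim (hf.trans (map_one _)) h2 b
    refine ⟨_, 1, fun u v => DFunLike.congr_fun (DFunLike.congr_fun (LinearMap.ext_basis b b
      (B := B.compl₁₂ _ _) (B' := ((1 : Fˣ) : F) • B) fun k l => ?_) u) v, h4⟩
    rcases eq_or_ne k l with rfl | h5
    · simp [← mul_assoc, h3]
    · simp [LinearMap.isOrthoᵢ_def.1 hb k l h5]
  obtain ⟨m, hm, -⟩ := ed_of_nonpow Nat.prime_two hz hf
  let e : Fin (finrank F V) ≃ Fin m ⊕ Fin m := Fintype.equivOfCardEq (by simp; omega)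
  have h3 : ∀ k l, k ≠ l → B (b.reindex e k) (b.reindex e l) = 0 := fun k l h => by
    simpa using LinearMap.isOrthoᵢ_def.1 hb _ _ (e.symm.injective.ne h)
  have h4 : ∀ k, B (b.reindex e k) (b.reindex e k) ≠ 0 := fun k => by
    simpa using hb.not_isOrtho_basis_self_of_separatingLeft h.nondegenerate.1 (e.symm k)
  generalize b.reindex e = c at h3 h4
  choose s t h5 using fun i => exists_binary_eq one_ne_zero
    (mul_ne_zero (h4 (.inl i)) (h4 (.inr i))) z
  refine simE_of_sq c (s := s) (t := fun i => t i * B (c (.inl i)) (c (.inl i)))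
    (t' := fun i => t i * B (c (.inr i)) (c (.inr i))) hz hf
    (fun i => by linear_combination h5 i) (δ := 1) ?_
  rintro (i | i) (j | j) <;> rcases eq_or_ne i j with rfl | h6 <;> simp [h3, *] <;> ring

variable [Fintype F] (p : ℕ) [hp : Fact p.Prime] [CharP F p] {K : Type*} [Field K] [Algebra F K]
  [IsAlgClosed K]

theorem ev_of_unip (h : IsNilpotent (f - 1)) : ev K f = (jt f).map (1, ·) := by
  rw [ev, ed_eq_of_unip h, Multiset.bind_map, ← Multiset.bind_singleton]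
  exact Multiset.bind_congr fun d hd => by
    simpa using evP_X_sub_C (K := K) (1 : Fˣ) (jt_pos f d hd)

variable [Algebra.IsAlgebraic F K]
include p

theorem sy_of_mult {B : LinearMap.BilinForm F V} (h : EH (RingHom.id F) ε B) (hf : IsUnit f)
    {c : Fˣ} (hy : ∀ u v, B (f u) (f v) = c * B u v) : Sy (-1) (uK K c) (eig K f) := by
  have h3 := eig_eq_map hf (hf.smul c⁻¹) (·⁻¹) (ev_inv_adj (K := K) p h hf (LinearMap.ext fun u =>
    h.ext_left fun v => by
      obtain ⟨v, rfl⟩ := ((Module.End.isUnit_iff f).1 hf).2 v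
      simp [h.adj_left, hy, Units.smul_def]))
  rw [Units.smul_def, eig_smul p hf] at h3
  have h4 := congrArg (Multiset.map (· * uK K c)) h3
  simpa [Sy, mul_comm] using h4.symm

theorem SimE.sy {B : LinearMap.BilinForm F V} (h : EH (RingHom.id F) ε B) (hf : IsUnit f)
    (hs : SimE B f) : ∃ c : Fˣ, Sy (-1) (uK K c) (eig K f) :=
  have ⟨_, c, hy, h1⟩ := hs
  ⟨c, Sim.eig_eq (K := K) h1 ▸ sy_of_mult p h (h1.isUnit_iff.2 hf) hy⟩

theorem SimE.sy_herm {q : ℕ} (hF : Nat.card F = q ^ 2) (hσ : ∀ x, σ x = x ^ q)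
    (hσ1 : σ ≠ RingHom.id F) (h : EH σ 1 B) (hf : IsUnit f) (hs : SimE B f) :
    ∃ c : Fˣ, Sy (-(q : ℤ)) (uK K (c ^ (-(q : ℤ) - 1))) (eig K f) := by
  obtain ⟨y, c, hy, h1⟩ := hs
  have h2 := h1.isUnit_iff.2 hf
  rcases subsingleton_or_nontrivial V with h0 | h0
  · exact ⟨1, by simp [Sy, Multiset.card_eq_zero.1 ((card_eig f).trans finrank_zero_of_subsingleton)]⟩
  obtain ⟨u, hu⟩ := exists_ne (0 : V)
  obtain ⟨v, hv⟩ := not_forall.1 (mt (h.nondeg u) hu)
  obtain ⟨d, hd⟩ := exists_norm_eq hσ1 h.invol (c := (c⁻¹ : Fˣ)) (by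
    have h3 := h.symm (y u) (y v)
    rw [hy, hy, map_mul, h.symm v u, one_mul, one_mul, h.invol] at h3
    simp [← mul_right_cancel₀ hv h3])
  lift d to Fˣ using IsUnit.mk0 _ (by rintro rfl; exact c⁻¹.ne_zero (by rw [← hd, mul_zero]))
  have h3 := (eig_eq_map (h2.smul d) (h2.smul d) (· ^ (-(q : ℤ))) (adm_ev_pres (K := K) p hF hσ h
    (f := (d : F) • y) fun u v => by
      simp only [LinearMap.smul_apply, map_smulₛₗ, hy, smul_eq_mul, RingHom.id_apply]
      rw [← mul_assoc, mul_comm (d : F), hd, Units.inv_mul_cancel_left]).st.symm).symm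
  rw [Units.smul_def, eig_smul p h2, Sim.eig_eq h1] at h3
  exact ⟨d, map_zpow (uK K) d _ ▸ sy_of_map_mul h3⟩

theorem simE_herm {q : ℕ} (hF : Nat.card F = q ^ 2) (hσ : ∀ x, σ x = x ^ q)
    (hσ1 : σ ≠ RingHom.id F) (h : EH σ 1 B) (hf : IsUnit f)
    (hs : St (-(q : ℤ)) (ev K f)) : SimE B f := by
  obtain ⟨y, hy⟩ := exists_UG_ev p hF hσ hσ1 h
    ⟨(adm_ev' p hf).pos, (adm_ev' p hf).dim, hs⟩
  exact ⟨_, 1, by simpa using fun u v => pres_UG y u v,
    (sim_iff_ev (h.pres_isUnit (pres_UG y)) hf).2 hy⟩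

theorem simE_alt {B : LinearMap.BilinForm F V} (hB : B.Nondegenerate) (hA : B.IsAlt)
    (hf : IsUnit f) (hs : St (-1) (ev K f)) (h : Par Odd (ev K f)) : SimE B f := by
  obtain ⟨y, hy⟩ := (ra_of_par p ⟨adm_ev' p hf, hs⟩ h).exists_SpG p hB hA (adm_ev' p hf).dim
  exact ⟨_, 1, by simpa using y.2.1, (sim_iff_ev ((eh_alt hB hA).pres_isUnit y.2.1) hf).2 hy⟩

theorem simE_odd (h2 : (2 : F) ≠ 0) {Q : QuadraticForm F V}
    (hQ : (QuadraticMap.polarBilin Q).Nondegenerate) (ho : Odd (finrank F V)) (hf : IsUnit f)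
    (hs : St (-1) (ev K f)) (h : Par Even (ev K f)) : SimE (QuadraticMap.polarBilin Q) f := by
  obtain ⟨y, hy⟩ := (ro_of_par p h2 ⟨adm_ev' p hf, hs⟩ h).exists_OG_odd p hQ
    (adm_ev' p hf).dim ho
  exact ⟨_, 1, by simpa using y.2.1, (sim_iff_ev ((eh_polar hQ).pres_isUnit y.2.1) hf).2 hy⟩

theorem st_ev_of_eig {m : ℕ} (hm : ¬ p ∣ m) (hf : f ^ m = 1) {a : ℤ}
    (h : (eig K f).map (· ^ a) = eig K f) : St a (ev K f) := by
  rw [ev_eq_of_pow p (IsUnit.of_pow_eq_one hf (by rintro rfl; simp at hm)) hm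
    (hf.trans (map_one _).symm), St, Multiset.map_map]
  conv_rhs => rw [← h, Multiset.map_map]
  rfl

omit [Algebra.IsAlgebraic F K] in
theorem exists_ordP_not_par {a m : ℕ} (ha : 2 ≤ a) (hap : a ≤ p) (hm : a + m = finrank F V)
    {R : ℕ → Prop} (hR : R a) : ∃ f : End F V, OrdP p f ∧ f ^ p = 1 ∧ ¬ Par R (ev K f) := by
  classical
  obtain ⟨f, h1, h2, h3, h4⟩ := exists_ordP_unip (F := F) (V := V) p
    (μ := a ::ₘ Multiset.replicate m 1) (fun b hb => by
      rcases Multiset.mem_cons.1 hb with rfl | hb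
      · omega
      · have := Multiset.eq_of_mem_replicate hb; omega) ⟨a, by simp, by omega⟩ (by simpa using hm)
  refine ⟨f, h1, h2, fun h => ?_⟩
  have h5 := h (1, a) (by simp [ev_of_unip h3, h4]) (one_pow _) hR
  rw [ev_of_unip h3, h4] at h5
  simp [Multiset.count_replicate, show 1 ≠ a by omega] at h5

theorem exists_bad_odd [hr : Fact r.Prime] (hrp : r ≠ p) (h2 : r ≠ 2)
    (h : ¬ r ∣ Fintype.card F - 1) {j : ℕ} (hj : Odd j) (hn : j ≤ finrank F V)
    (h1 : r ∣ Fintype.card F ^ j - 1) :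
    ∃ f : End F V, OrdP r f ∧ ∀ c : Fˣ, ¬ Sy (-1) (uK K c) (eig K f) := by
  rw [Fgs2.prime_dvd_pow_sub_one_iff _ _ Fintype.card_pos] at h1
  refine exists_bad_two p hrp h ((Nat.le_of_dvd hj.pos h1).trans hn) (by
    simpa [Int.natCast_dvd] using hr.out.ne_one) fun l h3 => h2 ?_
  rw [← ZMod.intCast_zmod_eq_zero_iff_dvd] at h3
  have h4 := congrArg (· ^ j) (eq_neg_of_add_eq_zero_left
    (by simpa using h3 : (Fintype.card F : ZMod r) ^ l + 1 = 0))
  rw [← pow_mul, mul_comm l, pow_mul, orderOf_dvd_iff_pow_eq_one.1 h1, one_pow,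
    hj.neg_one_pow] at h4
  exact (Nat.prime_dvd_prime_iff_eq hr.out Nat.prime_two).1 ((ZMod.natCast_eq_zero_iff 2 r).1
    (by linear_combination h4))

theorem eig_of_sq (h : f ^ 2 = 1) : ∃ a b, a + b = finrank F V ∧
    eig K f = .replicate a 1 + .replicate b (-1) ∧ LinearMap.det f = (-1) ^ b := by
  classical
  have h1 := IsUnit.of_pow_eq_one h two_ne_zero
  have h2 : eig K f = .replicate ((eig K f).count 1) 1 +
      .replicate ((eig K f).filter (¬ · = 1)).card (-1) := by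
    rw [← Multiset.filter_eq', ← Multiset.eq_replicate_card.2 fun x hx => ?_,
      Multiset.filter_add_not]
    rw [Multiset.mem_filter] at hx
    exact Or.resolve_left (by
      simpa using pow_of_mem_eig p h1 (c := 1) (h.trans (map_one _).symm) hx.1) hx.2
  generalize (eig K f).count 1 = a, ((eig K f).filter (¬ · = 1)).card = b at h2
  refine ⟨_, _, by simpa [card_eig] using (congrArg Multiset.card h2).symm, h2,
    (algebraMap F K).injective ?_⟩
  rw [← prod_eig p h1, h2]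
  simp

omit [IsAlgClosed K] [Algebra.IsAlgebraic F K] in
theorem exists_pow_eq_neg_one_iff (h2 : p ≠ 2) {n : ℕ} (hn : n ≠ 0) : (∃ d : Fˣ, d ^ n = -1) ↔
    padicValNat 2 n < padicValNat 2 (Fintype.card F - 1) := by
  rw [exists_pow_eq_iff_of_prime (orderOf_eq_prime (p := 2) (by simp) fun h =>
    Ring.neg_one_ne_one_of_char_ne_two (ringChar.eq F p ▸ h2) (congrArg Units.val h)) hn,
    Nat.card_units, Nat.card_eq_fintype_card]

theorem OrdP.sq_cases (h2 : p ≠ 2) (hf : OrdP 2 f)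
    (h : padicValNat 2 (Fintype.card F - 1) ≤ padicValNat 2 (finrank F V)) (he : Even (finrank F V)) :
    (∃ d : F, d ≠ 0 ∧ (d • f) ^ 2 = 1 ∧ ∃ a b, 2 * a + 2 * b = finrank F V ∧
      eig K (d • f) = .replicate (2 * a) 1 + .replicate (2 * b) (-1)) ∨
        ∃ z, (∀ b, b ^ 2 ≠ z) ∧ f ^ 2 = algebraMap F _ z := by
  rcases hf.cases with ⟨d, hd, h1⟩ | ⟨z, -, -, h1, h3, -⟩
  swap; · exact .inr ⟨z, h1, h3⟩
  obtain ⟨a, b, h3, h4, h5⟩ := eig_of_sq (K := K) p h1
  have := hf.nontrivial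
  obtain ⟨b, rfl⟩ : 2 ∣ b := by
    refine (Nat.even_or_odd b).elim Even.two_dvd fun hb => (h.not_gt ?_).elim
    rw [hb.neg_one_pow, LinearMap.det_smul, hf.1, mul_one] at h5
    exact (exists_pow_eq_neg_one_iff p h2 finrank_pos.ne').1 ⟨.mk0 d hd, Units.ext (by simpa)⟩
  obtain ⟨a, rfl⟩ : 2 ∣ a := by obtain ⟨m, hm⟩ := he; omega
  exact .inl ⟨d, hd, h1, a, b, h3, h4⟩

theorem exists_ordP_refl (h2 : p ≠ 2) {m : ℕ} (hm : finrank F V = m + 1) (h0 : m ≠ 0)
    (h : padicValNat 2 (finrank F V) < padicValNat 2 (Fintype.card F - 1)) :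
    ∃ (f : End F V) (d : F), d ≠ 0 ∧ OrdP 2 (d • f) ∧ f ^ 2 = 1 ∧
      eig K f = -1 ::ₘ .replicate m 1 := by
  obtain ⟨d, hd⟩ := (exists_pow_eq_neg_one_iff (F := F) p h2 (by omega)).2 h
  obtain ⟨f, h1, -, h3, h4⟩ := exists_eig (F := F) (V := V) (K := K) p
    (J := -1 ::ₘ .replicate m 1)
    (by simpa using map_uK_stable (K := K) ((-1 : Fˣ) ::ₘ .replicate m 1)) (by simp [hm])
  have h5 : f ^ 2 = 1 := (h4 2 1 fun x hx => by
    rcases Multiset.mem_cons.1 hx with rfl | hx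
    · simp
    · simp [Multiset.eq_of_mem_replicate hx]).trans (map_one _)
  refine ⟨f, d, d.ne_zero, ⟨(algebraMap F K).injective ?_, ⟨d ^ 2, by
    rw [_root_.smul_pow, h5, Algebra.algebraMap_eq_smul_one]⟩, fun c hc => ?_⟩, h5, h3⟩
  · rw [LinearMap.det_smul, map_mul, ← prod_eig p h1, h3, ← Units.val_pow_eq_pow_val, hd]
    simp
  · have h6 := fun x => pow_of_mem_eig (K := K) p h1 (m := 1) (c := (d⁻¹ : Fˣ) * c) (x := x) (by
      rw [pow_one, map_mul, ← hc, ← Algebra.smul_def, smul_smul, Units.inv_mul, one_smul])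
    have h7 := (h6 (-1) (by simp [h3])).trans (h6 1 (by
      simp [h3, Multiset.mem_replicate, h0])).symm
    have := charP_of_injective_algebraMap (algebraMap F K).injective p
    exact Ring.neg_one_ne_one_of_char_ne_two (ringChar.eq K p ▸ h2) (by simpa using h7)

end CF.Classical
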