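/-
Fixed-point counts for orthogonal similarity groups.
-/
import Cfsg.Agent.Classical.EluH

set_option autoImplicit false

namespace CF.Classical

open Module CF.Cls CF.Geom Polynomial

variable {F V : Type*} [Field F] [AddCommGroup V] [Module F V] [FiniteDimensional F V]
  [Fintype F] {r : ℕ} [hr : Fact r.Prime] {f : End F V}

theorem card_singular_modEq {Q : V → F} (h0 : Q 0 = 0) (hQ : ∀ v, Q (f v) = Q v) (hf : f ^ r = 1)
    (h : ∀ v, f v = v → v = 0) : (Nat.card {v // Q v = 0} : ZMod r) = 1 := by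
  classical
  have := Module.finite_of_finite F (M := V)
  have := Fintype.ofFinite {v // Q v = 0}
  let g : Function.End {v // Q v = 0} := fun v => ⟨f v, (hQ v).trans v.2⟩
  have h1 : ∀ k v, ((g ^ k) v).1 = (f ^ k) v := fun k => by
    induction k with
    | zero => exact fun _ => rfl
    | succ k ih => exact fun v => by rw [pow_succ, pow_succ]; exact ih _
  have h2 := Equiv.Perm.card_fixedPoints_modEq (f := g) (p := r) (n := 1)
    (funext fun v => Subtype.ext (by rw [pow_one, h1, hf]; rfl))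
  rw [(Fintype.card_eq_one_iff (α := g.fixedPoints)).2 ⟨⟨⟨0, h0⟩, Subtype.ext (map_zero f)⟩,
    fun v => Subtype.ext (Subtype.ext (h _ (congrArg Subtype.val v.2)))⟩] at h2
  rw [Nat.card_eq_fintype_card, (ZMod.natCast_eq_natCast_iff _ _ _).2 h2, Nat.cast_one]

variable (p : ℕ) [hp : Fact p.Prime] [CharP F p]
include p

theorem exists_ordP_fpf [Nontrivial V] (hrp : r ≠ p) (h : ¬ r ∣ Fintype.card F - 1)
    (h1 : (Fintype.card F : ZMod r) ^ finrank F V = 1) :
    ∃ f : End F V, OrdP r f ∧ f ^ r = 1 ∧ aeval f (cyclotomic r F) = 0 := by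
  obtain ⟨π, hπ⟩ := facs_nonempty (F := F) p hrp
  obtain ⟨k, hk⟩ := orderOf_dvd_of_pow_eq_one h1
  obtain ⟨f, h2, h3, h4, -⟩ := exists_ordP_facs (V := V) p hrp (mt ord_eq_one_iff.1 h)
    (S := .replicate k π) (fun h => by
      obtain rfl : k = 0 := by simpa using congrArg Multiset.card h
      exact finrank_pos.ne' hk)
    (fun a ha => Multiset.eq_of_mem_replicate ha ▸ hπ) (e := 0) (by simp [hk, mul_comm])
  refine ⟨f, h2, h3, (aeval_eq_zero_iff_ed _ _).2 fun a ha => ?_⟩
  rw [h4, Multiset.replicate_zero, zero_add] at ha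
  exact Multiset.eq_of_mem_replicate ha ▸ (mem_facs.1 hπ).2.2

omit [Fintype F] [FiniteDimensional F V] in
theorem eq_zero_of_aeval_cyclotomic (hrp : r ≠ p) (h : aeval f (cyclotomic r F) = 0) {v : V}
    (hv : f v = v) : v = 0 := by
  have h1 := End.aeval_apply_of_mem_apply_eq_smul (p := cyclotomic r F)
    (hv.trans (one_smul F v).symm)
  rw [h, eval_one_cyclotomic_prime, eq_comm, LinearMap.zero_apply, smul_eq_zero,
    CharP.cast_eq_zero_iff F p, Nat.prime_dvd_prime_iff_eq hp.out hr.out] at h1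
  exact h1.resolve_left hrp.symm

theorem exists_not_simE_quad [Nontrivial V] (h2 : (2 : F) ≠ 0) {Q : QuadraticForm F V}
    (hQ : (QuadraticMap.polarBilin Q).Nondegenerate) (hrp : r ≠ p)
    (h : ¬ r ∣ Fintype.card F - 1) (h1 : (Fintype.card F : ZMod r) ^ finrank F V = 1)
    (h3 : (Nat.card {v // Q v = 0} : ZMod r) ≠ 1) :
    ∃ f : End F V, OrdP r f ∧ ¬ SimE (QuadraticMap.polarBilin Q) f := by
  obtain ⟨f, h4, h5, h6⟩ := exists_ordP_fpf (V := V) p hrp h h1
  refine ⟨f, h4, fun hs => h3 ?_⟩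
  obtain ⟨y, h7, h8⟩ := hs.exists_pres (eh_polar hQ) h5 fun c => eq_one_of_pow_eq_one h
  have h9 := (h8.aeval_eq_zero_iff (X ^ r - 1)).2 (by simp [h5])
  rw [map_sub, map_pow, aeval_X, map_one, sub_eq_zero] at h9
  exact card_singular_modEq (map_zero Q) (fun v => mul_left_cancel₀ h2 (by
    simpa [polar_self'] using h7 v v)) h9 fun v =>
      eq_zero_of_aeval_cyclotomic p hrp ((h8.aeval_eq_zero_iff _).2 h6)

variable {K : Type*} [Field K] [Algebra F K] [IsAlgClosed K] [Algebra.IsAlgebraic F K]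

theorem map_zpow_eig_congr (hf : f ^ r = 1) {a b : ℤ} (h : (a : ZMod r) = b) :
    (eig K f).map (· ^ a) = (eig K f).map (· ^ b) :=
  Multiset.map_congr rfl fun x hx => zpow_eq_zpow_iff_modEq.2
    (((ZMod.intCast_eq_intCast_iff _ _ _).1 h).of_dvd (Int.natCast_dvd_natCast.2
      (orderOf_dvd_of_pow_eq_one (Units.ext (by
        simpa using pow_of_mem_eig p (IsUnit.of_pow_eq_one hf hr.out.ne_zero) (c := 1)
          (hf.trans (map_one _).symm) hx)))))

end CF.Classical
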