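/-
Diagonalisable elements and tensor decompositions.
-/
import Cfsg.Agent.Classical.EluI
import Cfsg.Agent.MaxSub.Units

set_option autoImplicit false

namespace CF.Classical

open Module CF.Cls CF.Geom Polynomial Cfsg.Geo TensorProduct

variable {F V U W : Type*} [Field F] [AddCommGroup V] [Module F V] [FiniteDimensional F V]
  [AddCommGroup U] [Module F U] [FiniteDimensional F U] [AddCommGroup W] [Module F W]
  [FiniteDimensional F W] {r : ℕ} {f : End F V}

/-- Elementary divisors of a diagonal matrix. -/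
noncomputable abbrev dg (s : Multiset F) : Multiset F[X] := s.map fun x => X - C x

theorem card_of_ed_dg {s : Multiset F} (h : ed f = dg s) : s.card = finrank F V := by
  simp [finrank_eq_ed f, h]

theorem det_of_ed_dg {s : Multiset F} (h : ed f = dg s) : LinearMap.det f = s.prod := by
  rw [LinearMap.det_eq_sign_charpoly_coeff, charpoly_eq_ed, h, ← card_of_ed_dg h,
    coeff_zero_eq_eval_zero, eval_multiset_prod, Multiset.map_map]
  simp [Multiset.prod_map_neg, ← mul_assoc, ← mul_pow]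

theorem aeval_eq_zero_iff_dg {s : Multiset F} (h : ed f = dg s) (P : F[X]) :
    aeval f P = 0 ↔ ∀ x ∈ s, P.eval x = 0 := by
  simp [aeval_eq_zero_iff_ed, h, dvd_iff_isRoot]

theorem pow_eq_iff_dg {s : Multiset F} (h : ed f = dg s) (m : ℕ) (z : F) :
    f ^ m = algebraMap F _ z ↔ ∀ x ∈ s, x ^ m = z := by
  have := aeval_eq_zero_iff_dg h (X ^ m - C z)
  simp only [map_sub, map_pow, aeval_X, aeval_C, eval_sub, eval_pow, eval_X, eval_C] at this
  simpa only [sub_eq_zero] using this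

theorem kd_of_ed_dg [DecidableEq F] {s : Multiset F} (h : ed f = dg s) (c : F) :
    kd f (X - C c) = s.count c := by
  rw [kd_eq_ed, h]
  clear h
  induction s using Multiset.induction_on with
  | empty => simp
  | cons x s ih =>
    rw [dg, Multiset.map_cons, Multiset.map_cons, Multiset.sum_cons, ih, Multiset.count_cons,
      add_comm]
    split_ifs with h1
    · simp [h1, kd_cyc_dvd (X_sub_C_ne_zero x) dvd_rfl]
    · rw [kd_cyc_coprime (X_sub_C_ne_zero x) (isCoprime_X_sub_C_of_isUnit_sub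
        (sub_ne_zero.2 h1).isUnit)]

theorem le_kd_of_ed {m : ℕ} {c : F} {t : Multiset F[X]}
    (h : ed f = .replicate m (X - C c) + t) : m ≤ kd f (X - C c) := by
  simp [kd_eq_ed, h, kd_cyc_dvd (X_sub_C_ne_zero c) dvd_rfl]

theorem exists_ed_dg (s : Multiset F) (h : s.card = finrank F V) : ∃ f : End F V, ed f = dg s :=
  exists_end_ed _ (fun a ha => by
    obtain ⟨x, -, rfl⟩ := Multiset.mem_map.1 ha
    exact isPP_of_irreducible (monic_X_sub_C x) (irreducible_X_sub_C x)) (by simpa using h)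

theorem exists_ordP_dg {s : Multiset F} (h : s.card = finrank F V) (h1 : s.prod = 1) {z : F}
    (h2 : ∀ x ∈ s, x ^ r = z) {x y : F} (hx : x ∈ s) (hy : y ∈ s) (hxy : x ≠ y) :
    ∃ f : End F V, OrdP r f ∧ ed f = dg s := by
  obtain ⟨f, hf⟩ := exists_ed_dg s h
  refine ⟨f, ⟨(det_of_ed_dg hf).trans h1, ⟨z, (pow_eq_iff_dg hf r z).2 h2⟩, fun c hc => ?_⟩, hf⟩
  have := (pow_eq_iff_dg hf 1 c).1 (by rwa [pow_one])
  exact hxy (by simpa using (this x hx).trans (this y hy).symm)

theorem eq_replicate_add_of_sq {s : Multiset F} (h : ∀ x ∈ s, x ^ 2 = 1) :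
    ∃ a b, s = .replicate a 1 + .replicate b (-1) := by
  classical
  refine ⟨s.count 1, (s.filter (¬ · = 1)).card, ?_⟩
  rw [← Multiset.filter_eq', ← Multiset.eq_replicate_card.2 fun x hx => ?_,
    Multiset.filter_add_not]
  rw [Multiset.mem_filter] at hx
  exact (sq_eq_one_iff.1 (h x hx.1)).resolve_left hx.2

section fin

variable [Fintype F] (p : ℕ) [hp : Fact p.Prime] [CharP F p]
include p

theorem ed_dg_of_pow [hr : Fact r.Prime] (h : r ∣ Fintype.card F - 1) (hf : f ^ r = 1) :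
    ∃ s : Multiset F, ed f = dg s ∧ ∀ x ∈ s, x ^ r = 1 := by
  obtain ⟨e, S, -, -, -, h1⟩ := ed_of_pow_eq_one p (ne_char_of_dvd p one_pos (by rwa [pow_one])) hf
  have h2 : ed f = dg ((ed f).map fun a => -a.coeff 0) := by
    rw [dg, Multiset.map_map]
    refine (Multiset.map_id _).symm.trans (Multiset.map_congr rfl fun a ha => ?_)
    have h3 : a.natDegree ∈ jt f := Multiset.mem_map_of_mem _ ha
    rw [h1, ord_eq_one_iff.2 h, ← Multiset.replicate_add] at h3
    simpa using (ed_isPP f a ha).monic.eq_X_add_C (Multiset.eq_of_mem_replicate h3)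
  exact ⟨_, h2, (pow_eq_iff_dg h2 r 1).1 (hf.trans (map_one _).symm)⟩

theorem OrdP.sq_cases' (h2 : p ≠ 2) (hf : OrdP 2 f)
    (h : padicValNat 2 (Fintype.card F - 1) ≤ padicValNat 2 (finrank F V))
    (he : Even (finrank F V)) : (∃ d : F, d ≠ 0 ∧ ∃ s : Multiset F, (∀ x ∈ s, x ^ 2 = 1) ∧
      ed (d • f) = dg (2 • s)) ∨ ∃ z, (∀ b, b ^ 2 ≠ z) ∧ f ^ 2 = algebraMap F _ z := by
  rcases hf.cases with ⟨d, hd, h1⟩ | ⟨z, -, -, h1, h3, -⟩
  swap; · exact .inr ⟨z, h1, h3⟩
  obtain ⟨s, h3, h4⟩ := ed_dg_of_pow p (by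
    obtain ⟨m, hp, hm⟩ := FiniteField.card F p
    exact (Nat.Odd.sub_odd (hm ▸ (hp.odd_of_ne_two h2).pow) odd_one).two_dvd) h1
  obtain ⟨a, b, rfl⟩ := eq_replicate_add_of_sq h4
  have h5 := det_of_ed_dg h3
  have h6 := card_of_ed_dg h3
  have := hf.nontrivial
  obtain ⟨b, rfl⟩ : 2 ∣ b := by
    refine (Nat.even_or_odd b).elim Even.two_dvd fun hb => (h.not_gt ?_).elim
    rw [LinearMap.det_smul, hf.1, mul_one] at h5
    exact (exists_pow_eq_neg_one_iff p h2 finrank_pos.ne').1 ⟨.mk0 d hd, Units.ext (by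
      simpa [hb.neg_one_pow] using h5)⟩
  obtain ⟨a, rfl⟩ : 2 ∣ a := by obtain ⟨m, hm⟩ := he; simp at h6; omega
  refine .inl ⟨d, hd, .replicate a 1 + .replicate b (-1), fun x hx => ?_, by
    rw [h3, smul_add, Multiset.nsmul_replicate, Multiset.nsmul_replicate]⟩
  rcases Multiset.mem_add.1 hx with hx | hx <;> simp [Multiset.eq_of_mem_replicate hx]

theorem exists_ordP_refl' (h2 : p ≠ 2) {m : ℕ} (hm : finrank F V = m + 1) (h0 : m ≠ 0)
    (h : padicValNat 2 (finrank F V) < padicValNat 2 (Fintype.card F - 1)) :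
    ∃ (f : End F V) (d : F), d ≠ -d ∧ OrdP 2 f ∧ ed f = dg (-d ::ₘ .replicate m d) := by
  obtain ⟨d, hd⟩ := (exists_pow_eq_neg_one_iff (F := F) p h2 (by omega)).2 h
  have h1 : (d : F) ≠ -d := fun h => Ring.neg_one_ne_one_of_char_ne_two (ringChar.eq F p ▸ h2)
    (mul_left_cancel₀ d.ne_zero (by rw [mul_one, mul_neg_one, ← h]))
  obtain ⟨f, h3, h4⟩ := exists_ordP_dg (V := V) (r := 2) (s := -(d : F) ::ₘ .replicate m d)
    (by simp [hm]) (by simpa [hm, pow_succ', neg_eq_iff_eq_neg] using congrArg Units.val hd)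
    (z := d ^ 2) (fun x hx => by
      rcases Multiset.mem_cons.1 hx with rfl | hx
      · simp
      · rw [Multiset.eq_of_mem_replicate hx])
    (Multiset.mem_cons_of_mem (Multiset.mem_replicate.2 ⟨h0, rfl⟩)) (Multiset.mem_cons_self _ _) h1
  exact ⟨f, d, h1, h3, h4⟩

end fin

theorem ed_map_one (h : End F W) :
    ed (TensorProduct.map 1 h : End F (U ⊗[F] W)) = finrank F U • ed h := by
  have h1 : Sim (TensorProduct.map 1 h : End F (U ⊗[F] W))
      (LinearMap.piMap fun _ : Fin (finrank F U) => h : End F _) :=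
    ⟨((finBasis F U).equivFun.rTensor W).trans ((TensorProduct.comm _ _ _).trans
      (piScalarRight F F W _)), fun v => by
        induction v with
        | zero => simp only [map_zero]
        | tmul u w => ext i; simp
        | add x y hx hy => simp only [map_add, hx, hy]⟩
  simp [sim_iff_ed.1 h1, ed_piMap]

omit [FiniteDimensional F V] in
theorem add_kd_le_of_map {g : End F U} (hg : ∀ c, g ≠ algebraMap F _ c) {h : End F W}
    (hh : IsUnit h) (c : F) : finrank F W + kd (TensorProduct.map g h : End F (U ⊗[F] W))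
      (X - C c) ≤ finrank F U * finrank F W := by
  obtain ⟨u, hu⟩ : ∃ u, g u ∉ F ∙ u := by
    by_contra! hc
    obtain ⟨c, e⟩ := g.exists_eq_smul_id_of_forall_notLinearIndependent fun v hv => by
      obtain ⟨c, e⟩ := Submodule.mem_span_singleton.1 (hc v)
      simpa using (LinearIndependent.pair_iff.1 hv c (-1) (by simp [e])).2
    exact hg c (e.trans (Algebra.algebraMap_eq_smul_one c).symm)
  obtain ⟨φ, h1, h2⟩ := exists_dual_one hu
  let N := aeval (TensorProduct.map g h : End F (U ⊗[F] W)) (X - C c)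
  have h3 : Function.Injective (N.rangeRestrict ∘ₗ TensorProduct.mk F U W u) :=
    (injective_iff_map_eq_zero _).2 fun w hw => ((End.isUnit_iff h).1 hh).1 (by
      simpa [N, h1, h2 u (Submodule.mem_span_singleton_self u)] using
        congrArg (fun x => TensorProduct.lid F W (φ.rTensor W x.1)) hw)
  rw [← finrank_tensorProduct, ← N.finrank_range_add_finrank_ker]
  exact Nat.add_le_add_right (LinearMap.finrank_le_finrank_of_injective h3) _

/-- `f` is similar to a tensor product. -/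
def TenE (a b : ℕ) (f : End F V) : Prop :=
  ∃ (g : End F (Fin a → F)) (h : End F (Fin b → F)), IsUnit g ∧ IsUnit h ∧
    Sim (TensorProduct.map g h : End F _) f

theorem sim_kron {ι κ : Type} [Fintype ι] [DecidableEq ι] [Fintype κ] [DecidableEq κ]
    (A : Matrix ι ι F) (B : Matrix κ κ F) : Sim (TensorProduct.map (Matrix.toLin' A)
      (Matrix.toLin' B) : End F _) (Matrix.toLin' (Matrix.kroneckerMap (· * ·) A B)) := by
  simpa [TensorProduct.toMatrix_map] using sim_toMatrix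
    ((Pi.basisFun F ι).tensorProduct (Pi.basisFun F κ))
      (TensorProduct.map (Matrix.toLin' A) (Matrix.toLin' B))

theorem inC_iff_tenE {ι : Type} [Fintype ι] [DecidableEq ι] {a b : ℕ} (e : ι ≃ Fin a × Fin b)
    (P : GL ι F) {f : End F (ι → F)} : InC (tensorProductSubgroup a b e P) f ↔ TenE a b f := by
  have h1 : ∀ y : GL ι F, Sim (Matrix.toLin' y.1) (Matrix.toLin' (MaxSub.coordGL e P y).1) :=
    fun y => ((isConj_GL_iff_sim y (P⁻¹ * y * P)).1 (isConj_iff.2 ⟨P⁻¹, by group⟩)).trans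
      (sim_reindex e _)
  refine ⟨fun ⟨y, hy, h⟩ => ?_, fun ⟨g, h, hg, hh, h2⟩ => ?_⟩
  · obtain ⟨A, B, h2⟩ := (MaxSub.mem_tensorProductSubgroup e P y).1 hy
    exact ⟨_, _, Matrix.isUnit_toLin'_iff.2 A.isUnit, Matrix.isUnit_toLin'_iff.2 B.isUnit,
      ((sim_kron A.1 B.1).trans (h2 ▸ (h1 y).symm)).trans h⟩
  · obtain ⟨A, rfl⟩ := Matrix.toLin'.surjective g
    obtain ⟨B, rfl⟩ := Matrix.toLin'.surjective h
    obtain ⟨A, rfl⟩ := Matrix.isUnit_toLin'_iff.1 hg
    obtain ⟨B, rfl⟩ := Matrix.isUnit_toLin'_iff.1 hh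
    obtain ⟨y, hy⟩ := (MaxSub.coordGL e P).surjective (MaxSub.kronGL A B)
    exact ⟨y, (MaxSub.mem_tensorProductSubgroup e P y).2 (hy ▸ MaxSub.kronGL_mem A B),
      (h1 y).trans (by rw [hy]; exact (sim_kron A.1 B.1).symm.trans h2)⟩

variable {a b : ℕ}

omit [FiniteDimensional F V] in
theorem TenE.of_smul {c : F} (hc : c ≠ 0) (h : TenE a b (c • f)) : TenE a b f := by
  obtain ⟨g, h, hg, hh, e, he⟩ := h
  exact ⟨c⁻¹ • g, h, hg.smul (Units.mk0 c hc)⁻¹, hh, e, fun v => by
    simp [TensorProduct.map_smul_left, he, smul_smul, hc]⟩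

theorem tenE_of_ed (hf : IsUnit f) (ha : a ≠ 0) (hn : finrank F V = a * b) {s : Multiset F[X]}
    (h : ed f = a • s) : TenE a b f := by
  have h1 : ∀ x ∈ s, x ∈ ed f := fun x hx => h ▸ (Multiset.mem_nsmul_of_ne_zero ha).2 hx
  obtain ⟨g, rfl⟩ := exists_end_ed (V := Fin b → F) s (fun x hx => ed_isPP f x (h1 x hx))
    (Nat.eq_of_mul_eq_mul_left (Nat.pos_of_ne_zero ha) (by
      simpa [h, Multiset.map_nsmul, Multiset.sum_nsmul, hn] using (finrank_eq_ed f).symm))
  exact ⟨1, g, isUnit_one, (isUnit_iff_ed g).2 fun x hx => (isUnit_iff_ed f).1 hf x (h1 x hx),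
    sim_iff_ed.2 (by simp [ed_map_one, h])⟩

theorem tenE_of_sq (hn : finrank F V = 2 * b) {z : F} (hz : ∀ c, c ^ 2 ≠ z)
    (hf : f ^ 2 = algebraMap F _ z) : TenE 2 b f := by
  obtain ⟨g, hg⟩ := exists_end_hasED (V := Fin 2 → F) {X ^ 2 - C z}
    (by simpa using X_pow_sub_C_ne_zero two_pos z) (by simp)
  have h1 := (hg.aeval_eq_zero_iff (X ^ 2 - C z)).2 (by simp)
  rw [map_sub, map_pow, aeval_X, aeval_C, sub_eq_zero] at h1
  refine ⟨g, 1, (isUnit_pow_iff two_ne_zero).1 (h1 ▸ (IsUnit.mk0 z fun h => hz 0 (by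
    simp [h])).map _), isUnit_one, sim_of_nonpow Nat.prime_two hz ?_ hf (by simp [hn])⟩
  rw [TensorProduct.map_pow, h1]
  simp [Algebra.algebraMap_eq_smul_one, TensorProduct.map_smul_left, TensorProduct.map_one]

theorem TenE.cases [DecidableEq F[X]] (h : TenE a b f) : (∀ π, a ∣ (ed f).count π) ∨
    ((∀ c, b + kd f (X - C c) ≤ a * b) ∧ ∃ g : End F (Fin a → F), IsUnit g ∧ (∀ c, g ≠ algebraMap F _ c) ∧
      ∀ m z, f ^ m = algebraMap F _ z → b ≠ 0 → ∃ c, g ^ m = algebraMap F _ c) := by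
  obtain ⟨g, h, hg, hh, h1⟩ := h
  by_cases h2 : ∃ c, g = algebraMap F _ c
  · obtain ⟨c, rfl⟩ := h2
    refine .inl fun π => ⟨(ed (c • h)).count π, ?_⟩
    rw [← sim_iff_ed.1 h1, Algebra.algebraMap_eq_smul_one, TensorProduct.map_smul_left,
      ← TensorProduct.map_smul_right, ed_map_one, Multiset.count_nsmul, finrank_fin_fun]
  refine .inr ⟨fun c => by simpa [h1.kd_eq] using add_kd_le_of_map (not_exists.1 h2) hh c,
    g, hg, not_exists.1 h2, fun m z hm hb => by_contra fun h3 => hb ?_⟩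
  have h4 := add_kd_le_of_map (not_exists.1 h3) (hh.pow m) z
  have h5 := (h1.aeval_eq_zero_iff (X ^ m - C z)).2 (by simp [hm])
  rw [map_sub, map_pow, aeval_X, aeval_C, TensorProduct.map_pow] at h5
  rw [kd, map_sub, aeval_X, aeval_C, h5, LinearMap.ker_eq_top.2 rfl, finrank_top] at h4
  simpa using h4

end CF.Classical
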