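/-
Conjugacy into field extension subgroups.
-/
import Cfsg.Agent.Classical.EluJ
import Cfsg.Agent.MaxSub.C3C

set_option autoImplicit false

namespace CF.Classical

open Module CF.Cls CF.Geom Polynomial Cfsg.Geo

variable {F V W : Type*} [Field F] [AddCommGroup V] [Module F V] [FiniteDimensional F V]
  [AddCommGroup W] [Module F W] [FiniteDimensional F W] {f : End F V}

/-- `f` is non-derogatory. -/
def Cy (f : End F V) : Prop := ∀ P : F[X], P ≠ 0 → aeval f P = 0 → finrank F V ≤ P.natDegree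

omit [FiniteDimensional F V] [FiniteDimensional F W] in
theorem Cy.of_sim {g : End F W} (h : Cy f) (h' : Sim f g) : Cy g :=
  fun P h1 h2 => h'.finrank_eq ▸ h P h1 ((h'.aeval_eq_zero_iff P).2 h2)

theorem Cy.sim_cyc (h : Cy f) {a : F[X]} (h1 : a.Monic) (h2 : a.natDegree = finrank F V)
    (h3 : aeval f a = 0) : Sim (cyc a) f := by
  have hi := Algebra.IsIntegral.isIntegral (R := F) f
  obtain rfl : a = minpoly F f := eq_of_monic_of_dvd_of_natDegree_le (minpoly.monic hi) h1
    (minpoly.dvd F f h3) (h2 ▸ h _ (minpoly.ne_zero hi) (minpoly.aeval F f))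
  obtain ⟨v, hv⟩ := exists_ker_toSpanSingleton_eq_annihilator F[X] (AEval' f)
  obtain ⟨v, rfl⟩ := (AEval'.of _).surjective v
  rw [← span_minpoly_eq_annihilator] at hv
  have h4 : ∀ p : F[X], aeval f p v = 0 ↔ minpoly F f ∣ p := fun p => by
    rw [← Ideal.mem_span_singleton, ← hv, LinearMap.mem_ker, LinearMap.toSpanSingleton_apply,
      ← AEval.of_aeval_smul]
    exact (AEval'.of f).map_eq_zero_iff.symm
  let T : F[X] →ₗ[F] V := LinearMap.applyₗ v ∘ₗ (aeval f).toLinearMap
  refine sim_cyc_of_cyclic f v _ h4 (LinearMap.range_eq_top (f := T).1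
    (Submodule.eq_top_of_finrank_eq ?_))
  rw [← T.quotKerEquivRange.finrank_eq, ← h2, ← finrank_adjoinRoot, show LinearMap.ker T =
    (Ideal.span {minpoly F f}).restrictScalars F from
      Submodule.ext fun p => (h4 p).trans Ideal.mem_span_singleton.symm]
  exact (Submodule.Quotient.restrictScalarsEquiv F _).finrank_eq

theorem cy_of_nodup (hs : SS f) (h : (ed f).Nodup) : Cy f := fun P h1 h2 => by
  classical
  rw [← f.charpoly_natDegree, charpoly_eq_ed]
  refine natDegree_le_of_dvd (Multiset.prod_primes_dvd P (fun a ha => (hs a ha).prime)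
    ((aeval_eq_zero_iff_ed f P).1 h2) fun a => ?_) h1
  rw [Multiset.countP_eq_card_filter]
  refine (Finset.card_le_one (s := ⟨_, h.filter _⟩)).2 fun x hx y hy => ?_
  rw [← Finset.mem_val, Multiset.mem_filter] at hx hy
  exact eq_of_monic_of_associated (ed_isPP f x hx.1).monic (ed_isPP f y hy.1).monic
    (hx.2.symm.trans hy.2)

omit [FiniteDimensional F V] in
theorem cy_of_two (h : finrank F V = 2) (h1 : ∀ c, f ≠ algebraMap F _ c) : Cy f := fun P h2 h3 => by
  have : Nontrivial V := nontrivial_of_finrank_eq_succ h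
  by_contra! h4
  rw [eq_X_add_C_of_natDegree_le_one (p := P) (by omega)] at h2 h3
  generalize P.coeff 1 = a, P.coeff 0 = b at h2 h3
  rcases eq_or_ne a 0 with rfl | ha
  · simp_all
  · refine h1 (-(b / a)) (smul_right_injective _ ha ?_)
    simp only [map_add, map_mul, aeval_C, aeval_X, ← Algebra.smul_def] at h3
    simp only [eq_neg_of_add_eq_zero_left h3, Algebra.algebraMap_eq_smul_one, smul_smul, ← neg_smul]
    congr 1; field_simp

variable (K : Type*) [Field K] [Algebra F K] [Module K V] [IsScalarTower F K V]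

/-- `f` is similar to a `K`-semilinear map. -/
def SemE (f : End F V) : Prop :=
  ∃ y : End F V, IsUnit y ∧ (∀ k : K, ∃ k' : K, ∀ v, y (k • v) = k' • y v) ∧ Sim y f

variable {K}

omit [FiniteDimensional F V] in
theorem SemE.of_smul {c : F} (hc : c ≠ 0) (h : SemE K (c • f)) : SemE K f := by
  obtain ⟨y, h1, h2, e, he⟩ := h
  exact ⟨c⁻¹ • y, h1.smul (Units.mk0 c hc)⁻¹, fun k => (h2 k).imp fun k' h v => by
    simp [h, smul_comm k'], e, fun v => by simp [he, smul_smul, hc]⟩

theorem semE_of_ed_dg (hf : IsUnit f) {s : Multiset F} (h : ed f = dg (finrank F K • s)) :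
    SemE K f := by
  have := Module.Finite.of_restrictScalars_finite F K V
  rcases subsingleton_or_nontrivial V with h0 | h0
  · exact ⟨f, hf, fun k => ⟨k, fun _ => Subsingleton.elim _ _⟩, .refl _⟩
  have := Module.Finite.left F K V
  obtain ⟨m, ε, rfl⟩ := exists_fin_map_eq s
  obtain rfl : m = finrank K V := Nat.eq_of_mul_eq_mul_left (finrank_pos (R := F) (M := K)) (by
    simpa [finrank_mul_finrank] using card_of_ed_dg h)
  have h1 := Sim.of_conj ((finBasis K V).equivFun.symm.restrictScalars F)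
    (LinearMap.piMap fun i => algebraMap F (End F K) (ε i) : End F _)
  have h2 := h1.symm.trans (sim_iff_ed.2 (show _ = ed f by
    simp only [ed_piMap, ed_algebraMap, h, Multiset.map_nsmul, ← Multiset.nsmul_singleton,
      Finset.sum_nsmul, Multiset.map_map, dg]
    exact congrArg _ (Multiset.bind_singleton _ _)))
  refine ⟨_, h2.isUnit_iff.2 hf, fun k => ⟨k, fun v => ?_⟩, h2⟩
  simp [LinearEquiv.conj_apply, Finset.smul_sum, mul_smul, Module.algebraMap_end_apply, smul_comm k]

theorem semE_of_sq [Finite K] (hK : finrank F K = 2) {z : F} (hz : ∀ c, c ^ 2 ≠ z)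
    (hf : f ^ 2 = algebraMap F _ z) : SemE K f := by
  have := Finite.of_injective _ (algebraMap F K).injective
  have := Fact.mk (X_pow_sub_C_irreducible_of_prime Nat.prime_two hz)
  have := fd_adjoinRoot (X_pow_sub_C_ne_zero two_pos z)
  have := Module.finite_of_finite F (M := AdjoinRoot (X ^ 2 - C z))
  obtain ⟨φ⟩ := FiniteField.nonempty_algHom_of_finrank_dvd (F := F) (K := AdjoinRoot (X ^ 2 - C z))
    (L := K) (by simp [finrank_adjoinRoot, hK])
  have h1 : Algebra.lsmul F F V (φ (AdjoinRoot.root _)) ^ 2 = algebraMap F _ z := by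
    rw [← map_pow, ← map_pow, root_X_pow_sub_C_pow, ← AdjoinRoot.algebraMap_eq, AlgHom.commutes,
      AlgHom.commutes]
  exact ⟨_, (isUnit_pow_iff two_ne_zero).1 (h1 ▸ (IsUnit.mk0 z fun h => hz 0 (by simp [h])).map _),
    fun k => ⟨k, fun v => smul_comm _ _ _⟩, sim_of_nonpow Nat.prime_two hz h1 hf rfl⟩

theorem SemE.finrank_eq_one (h : SemE K f) {c : F} (hc : c ≠ 0)
    (h1 : kd f (X - C c) + 1 = finrank F V) (h3 : 3 ≤ finrank F V) : finrank F K = 1 := by
  obtain ⟨y, -, h2, h⟩ := h
  rw [← h.kd_eq, kd, map_sub, aeval_X, aeval_C] at h1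
  generalize hN : y - algebraMap F _ c = N at h1
  have h4 : ∀ v, y v = N v + c • v := fun v => by simp [← hN, Module.algebraMap_end_apply]
  have h5 := N.finrank_range_add_finrank_ker
  have h6 : ∀ (k : K) v, N (k • v) = k • N v := fun k v => by
    obtain ⟨k', hk⟩ := h2 k
    have h6 := (N ∘ₗ Algebra.lsmul F F V k).finrank_range_add_finrank_ker
    have h7 := Submodule.finrank_mono (LinearMap.range_comp_le_range (Algebra.lsmul F F V k) N)
    have h8 := Submodule.finrank_sup_add_finrank_inf_eq (LinearMap.ker N)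
      (LinearMap.ker (N ∘ₗ Algebra.lsmul F F V k))
    have h9 := Submodule.finrank_le (LinearMap.ker N ⊔ LinearMap.ker (N ∘ₗ Algebra.lsmul F F V k))
    obtain ⟨w, ⟨h10, h11⟩, h12⟩ := (Submodule.ne_bot_iff (LinearMap.ker N ⊓
      LinearMap.ker (N ∘ₗ Algebra.lsmul F F V k))).1 fun h => by rw [h, finrank_bot] at h8; omega
    have h13 := hk w
    rw [h4, h4, show N w = 0 from h10, show N (k • w) = 0 from h11, zero_add, zero_add,
      smul_comm k'] at h13
    obtain rfl := smul_left_injective K h12 (smul_right_injective V hc h13)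
    have h14 := hk v
    rwa [h4, h4, smul_add, smul_comm k, add_left_inj] at h14
  obtain ⟨⟨_, u, rfl⟩, hu, h7⟩ := finrank_eq_one_iff'.1 (show finrank F (LinearMap.range N) = 1 by
    omega)
  refine finrank_eq_one_iff'.2 ⟨1, one_ne_zero, fun k => (h7 ⟨_, k • u, rfl⟩).imp fun a ha =>
    smul_left_injective K (show N u ≠ 0 from fun h => hu (Subtype.ext h)) ?_⟩
  simpa [h6] using congrArg Subtype.val ha

/-- The semilinear map `x ↦ a σ(x)`. -/
noncomputable def tw (a : K) (σ : K →ₐ[F] K) : End F K := a • σ.toLinearMap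

theorem tw_apply (a : K) (σ : K →ₐ[F] K) (x : K) : tw a σ x = a * σ x := rfl

theorem tw_pow (a : K) (σ : K →ₐ[F] K) (m : ℕ) :
    tw a σ ^ m = tw (∏ i ∈ Finset.range m, (σ ^ i) a) (σ ^ m) := by
  induction m with
  | zero => ext; simp [tw_apply]
  | succ m ih => ext; simp [pow_succ, ih, tw_apply, Finset.prod_range_succ, mul_assoc]

theorem cy_tw {a : K} (ha : a ≠ 0) {σ : K →ₐ[F] K} (h : orderOf σ = finrank F K) :
    Cy (tw a σ) := fun P h1 h2 => by
  by_contra! h3
  have h4 := Fintype.linearIndependent_iff.1 ((linearIndependent_algHom_toLinearMap F K K).comp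
    (fun i : Fin (finrank F K) => σ ^ i.1) fun i j hij => Fin.ext
      (pow_injOn_Iio_orderOf (i.2.trans_eq h.symm) (j.2.trans_eq h.symm) hij))
    (fun i => P.coeff i • ∏ j ∈ Finset.range i, (σ ^ j) a) (by
      simp only [aeval_eq_sum_range' h3, Finset.sum_range, tw_pow] at h2
      simpa [tw] using h2)
  refine h1 (ext fun i => ?_)
  rcases lt_or_ge i (finrank F K) with hi | hi
  · exact (smul_eq_zero.1 (h4 ⟨i, hi⟩)).resolve_right
      (Finset.prod_ne_zero_iff.2 fun j _ => (_root_.map_ne_zero _).2 ha)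
  · exact coeff_eq_zero_of_natDegree_lt (h3.trans_le hi)

variable [Finite K]

theorem semE_of_cy [Nontrivial V] (hK : finrank F K = finrank F V) (h : Cy f) {z : F} (hz : z ≠ 0)
    (hf : f ^ finrank F V = algebraMap F _ z) : SemE K f := by
  have := Finite.of_injective _ (algebraMap F K).injective
  have := Fintype.ofFinite F
  obtain ⟨a, ha⟩ := FiniteField.norm_surjective F K z
  have h0 : a ≠ 0 := by rintro rfl; simp [← ha] at hz
  have h1 := FiniteField.orderOf_frobeniusAlgHom F K
  have h2 : tw a (FiniteField.frobeniusAlgHom F K) ^ finrank F K = algebraMap F _ z := by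
    ext x
    rw [tw_pow, tw_apply, ← h1, pow_orderOf_eq_one, h1, ← ha, Module.algebraMap_end_apply,
      Algebra.smul_def, FiniteField.algebraMap_norm_eq_prod_pow]
    simp [FiniteField.coe_frobeniusAlgHom, pow_iterate]
  have h3 := monic_X_pow_sub_C z (finrank_pos (R := F) (M := V)).ne'
  have h4 := ((cy_tw h0 h1).sim_cyc h3 (by simp [hK]) (by simp [← hK, h2])).symm.trans
    (h.sim_cyc h3 (by simp) (by simp [hf]))
  have := Module.Finite.of_restrictScalars_finite F K V
  obtain ⟨e⟩ := FiniteDimensional.nonempty_linearEquiv_of_finrank_eq (R := K) (M := K) (M' := V)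
    (Nat.eq_of_mul_eq_mul_left (finrank_pos (R := F) (M := K)) (by
      rw [finrank_mul_finrank, finrank_mul_finrank, hK]))
  have h5 := (Sim.of_conj (e.restrictScalars F) _).symm.trans h4
  exact ⟨_, h5.isUnit_iff.2 ((isUnit_pow_iff finrank_pos.ne').1 (hf ▸ (IsUnit.mk0 z hz).map _)),
    fun k => ⟨FiniteField.frobeniusAlgHom F K k, fun v => by
      simp only [LinearEquiv.conj_apply_apply, tw_apply, LinearEquiv.restrictScalars_apply,
        LinearEquiv.restrictScalars_symm_apply, map_smul e.symm, smul_eq_mul, map_mul]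
      rw [mul_left_comm, ← smul_eq_mul, map_smul]⟩, h5⟩

theorem SemE.cy (h : SemE K f) (hK : finrank F K = finrank F V) (hp : (finrank F V).Prime)
    (h1 : ∀ c, f ≠ algebraMap F _ c) : Cy f := by
  obtain ⟨y, hy, h2, h⟩ := h
  have := Finite.of_injective _ (algebraMap F K).injective
  have := Module.Finite.of_restrictScalars_finite F K V
  obtain ⟨e⟩ := FiniteDimensional.nonempty_linearEquiv_of_finrank_eq (R := K) (M := K) (M' := V)
    (Nat.eq_of_mul_eq_mul_left (finrank_pos (R := F) (M := K)) (by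
      rw [finrank_mul_finrank, finrank_mul_finrank, hK]))
  have h3 := Sim.of_conj (e.symm.restrictScalars F) y
  generalize hg : (e.symm.restrictScalars F).conj y = g at h3
  have h4 : g 1 ≠ 0 := fun h => one_ne_zero (((End.isUnit_iff g).1 (h3.isUnit_iff.1 hy)).1
    (h.trans (map_zero g).symm))
  have h5 : ∀ k l, g (k * l) * g 1 = g k * g l := fun k l => by
    obtain ⟨k', hk⟩ := h2 k
    have : ∀ l, g (k * l) = k' * g l := fun l => by
      simp [← hg, LinearEquiv.conj_apply, ← smul_eq_mul, hk]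
    rw [this, ← mul_one k, this]; ring
  let σ : K →ₐ[F] K := .ofLinearMap ((g 1)⁻¹ • g) (by simp [h4]) fun k l => by
    simp only [LinearMap.smul_apply, smul_eq_mul]; field_simp; rw [mul_comm, h5]
  have h6 : g = tw (g 1) σ := LinearMap.ext fun x => by simp [tw_apply, σ, h4]
  refine Cy.of_sim ?_ (h3.symm.trans h)
  rcases eq_or_ne σ 1 with h7 | h7
  · intro P h8 h9
    have h10 := natDegree_le_of_dvd (minpoly.dvd F (g 1) (p := P) (Algebra.lmul_injective (R := F)
      (by rw [← aeval_algHom_apply, map_zero, ← h9, h6, h7]; congr; ext; simp [tw_apply]))) h8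
    have hi := Algebra.IsIntegral.isIntegral (R := F) (g 1)
    rcases (Nat.dvd_prime (hK ▸ hp)).1 (minpoly.degree_dvd hi) with h11 | h11
    · obtain ⟨c, hc⟩ := minpoly.natDegree_eq_one_iff.1 h11
      refine (h1 c ?_).elim
      have := ((h3.symm.trans h).aeval_eq_zero_iff (X - C c)).1 (LinearMap.ext fun x => by
        rw [h6, h7, ← hc]; simp [tw_apply, Algebra.smul_def, Module.algebraMap_end_apply])
      simpa [sub_eq_zero] using this
    · exact h11 ▸ h10
  have := Fintype.ofFinite F
  have := Fact.mk (hK ▸ hp)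
  obtain ⟨j, hj⟩ := (FiniteField.bijective_frobeniusAlgHom_pow F K).2 σ
  exact h6 ▸ cy_tw h4 (orderOf_eq_prime (by
    rw [← hj, ← pow_mul, mul_comm, pow_mul, orderOf_dvd_iff_pow_eq_one.1
      (FiniteField.orderOf_frobeniusAlgHom F K).dvd, one_pow]) h7)

omit [FiniteDimensional F V] [Finite K] in
theorem OrdP.smul_ne {r : ℕ} (hf : OrdP r f) {d : F} (hd : d ≠ 0) (c : F) :
    d • f ≠ algebraMap F _ c := fun h => hf.2.2 (d⁻¹ * c) (by
  rw [map_mul, ← h, ← Algebra.smul_def, inv_smul_smul₀ hd])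

theorem OrdP.semE_of_ord [Fintype F] (p : ℕ) [Fact p.Prime] [CharP F p] {r : ℕ} [hr : Fact r.Prime]
    (hf : OrdP r f) (hrp : r ≠ p) (hK : finrank F K = r) (hn : finrank F V = r) (h3 : 3 ≤ r)
    (h : orderOf (Fintype.card F : ZMod r) = r - 1) : SemE K f := by
  have := hf.nontrivial
  rcases hf.cases with ⟨d, hd, h1⟩ | ⟨-, -, -, -, -, h1, -⟩
  swap; · have := ord_eq_one_iff.2 h1; omega
  obtain ⟨e, S, h2, h4, h5, -⟩ := ed_of_pow_eq_one p hrp h1
  have h6 : S.card ≠ 0 := fun h => hf.smul_ne hd 1 (eq_scalar_of_ed fun a ha =>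
    Multiset.eq_of_mem_replicate (by rwa [h5, Multiset.card_eq_zero.1 h, add_zero] at ha))
  have h7 : S.card = 1 := by
    by_contra h7
    have := Nat.mul_le_mul_right (r - 1) (show 2 ≤ S.card by omega)
    rw [h] at h4; omega
  obtain rfl : e = 1 := by rw [h, h7] at h4; omega
  obtain ⟨π, rfl⟩ := Multiset.card_eq_one.1 h7
  refine (semE_of_cy (hK.trans hn.symm) (cy_of_nodup (ss_of_pow_eq_one (natCast_ne_zero_of_coprime p
    ((Nat.coprime_primes hr.out Fact.out).2 hrp)) h1) ?_) one_ne_zero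
      (by rw [hn, h1, map_one])).of_smul hd
  simpa [h5] using fun h => X_sub_one_notMem_facs p hr.out hrp (h ▸ h2 π (by simp))

theorem inC_iff_semE {ι : Type} [Fintype ι] [DecidableEq ι] [Nonempty ι] [Finite F]
    {L : Subalgebra F (Matrix ι ι F)} (hF : IsField L) {f : End F (ι → F)} :
    InC (subalgebraNormalizer L) f ↔ (letI := hF.toField; SemE L f) := by
  let := hF.toField
  refine ⟨fun ⟨y, hy, h⟩ => ⟨_, Matrix.isUnit_toLin'_iff.2 y.isUnit,
    ((MaxSub.mem_subalgebraNormalizer_iff_semiG hF y).1 hy).1, h⟩, fun ⟨y, h1, h2, h⟩ => ?_⟩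
  obtain ⟨A, rfl⟩ := Matrix.toLin'.surjective y
  obtain ⟨A, rfl⟩ := Matrix.isUnit_toLin'_iff.1 h1
  exact ⟨A, (MaxSub.mem_subalgebraNormalizer_iff_semiG hF A).2 (MaxSub.mem_semiG h2), h⟩

end CF.Classical
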