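import Cfsg.Agent.Cls.SS

/-! Möbius functions: chains in graded posets, Weisner's theorem, semisimple modules. -/

set_option autoImplicit false

open Finset Polynomial Module
open scoped Classical

namespace CF.Classical

section Det
variable {A : Type*} [Ring A] (H : ℕ → A)

/-- Ordered (non-commutative) expansion of the Hessenberg determinant. -/
noncomputable def hessD (n s : ℕ) : A := ∑ κ : Equiv.Perm (Fin n),
  if ∀ i, (κ i).1 ≤ 1 + i then ((Equiv.Perm.sign κ : ℤ) : A) *
    (List.ofFn fun i : Fin n => H (1 + i - κ i + if (κ i).1 = 0 then s else 0)).prod else 0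

theorem hessD_zero (s : ℕ) : hessD H 0 s = 1 := by simp [hessD]

theorem hessD_one (s : ℕ) : hessD H 1 s = H (1 + s) := by
  simp [hessD, Fintype.sum_unique]

theorem hessD_succ (h0 : H 0 = 1) (n s : ℕ) :
    hessD H (n + 2) s = H (1 + s) * hessD H (n + 1) 0 - hessD H (n + 1) (s + 1) := by
  rw [hessD, ← Equiv.Perm.decomposeFin.symm.sum_comp, Fintype.sum_prod_type, Fin.sum_univ_succ,
    Fin.sum_univ_succ, sum_eq_zero (s := univ) (f := fun i : Fin n => _) fun p _ =>
      sum_eq_zero fun e _ => if_neg fun h => by simpa using h 0, add_zero, sub_eq_add_neg, hessD,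
    hessD, mul_sum, ← sum_neg_distrib]
  congr 1 <;> refine sum_congr rfl fun e _ => ?_
  · simp only [Fin.forall_fin_succ (n := n + 1), List.ofFn_succ (n := n + 1),
      Equiv.Perm.decomposeFin_symm_apply_zero, Equiv.Perm.decomposeFin_symm_apply_succ,
      Equiv.Perm.decomposeFin.symm_sign, Equiv.swap_self, Equiv.refl_apply, Fin.val_succ,
      Fin.val_zero, List.prod_cons, zero_le, true_and, if_true, one_mul, ← add_assoc,
      add_le_add_iff_right, Nat.add_sub_add_right, Nat.succ_ne_zero, if_false, ite_self,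
      tsub_zero, add_zero, mul_ite, mul_zero]
    rw [← mul_assoc, ← mul_assoc, (Int.cast_commute _ _).eq]
  · have h1 : ∀ x : Fin (n + 1), ((Equiv.swap 0 (Fin.succ 0) x.succ : Fin (n + 2)) : ℕ) =
        if x.1 = 0 then 0 else x.1 + 1 := fun x => by
      refine Fin.cases (by simp) (fun y => ?_) x
      rw [Equiv.swap_apply_of_ne_of_ne (Fin.succ_ne_zero _) (by simp [Fin.ext_iff])]
      simp
    have h2 : ∀ x i : ℕ, ((if x = 0 then 0 else x + 1) ≤ 1 + (i + 1) ↔ x ≤ 1 + i) :=
      fun x i => by split_ifs <;> omega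
    have h3 : ∀ x i : ℕ, (1 + (i + 1) - (if x = 0 then 0 else x + 1) +
        if (if x = 0 then 0 else x + 1) = 0 then s else 0) =
        1 + i - x + if x = 0 then s + 1 else 0 := fun x i => by
      by_cases h : x = 0 <;> simp [h] <;> omega
    simp only [Fin.forall_fin_succ (n := n + 1), List.ofFn_succ (n := n + 1),
      Equiv.Perm.decomposeFin_symm_apply_zero, Equiv.Perm.decomposeFin_symm_apply_succ,
      Equiv.Perm.decomposeFin.symm_sign, h1, Fin.val_succ, h2, h3, Fin.val_zero, List.prod_cons]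
    simp [h0]
    split_ifs <;> simp

theorem hessD_eq (h0 : H 0 = 1) (n s : ℕ) : hessD H (n + 1) s =
    ∑ k ∈ range (n + 1), (-1) ^ k * (H (k + 1 + s) * hessD H (n - k) 0) := by
  induction n generalizing s with
  | zero => simp [hessD_one, hessD_zero]
  | succ n ih =>
    rw [hessD_succ H h0, ih (s + 1), sum_range_succ' _ (n + 1), sub_eq_neg_add, ← sum_neg_distrib]
    simp only [pow_succ, Nat.add_sub_add_right, mul_neg, neg_mul, mul_one, pow_zero, one_mul,
      zero_add, tsub_zero, add_assoc, add_comm s 1]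

theorem sum_hessD (h0 : H 0 = 1) (n : ℕ) :
    ∑ k ∈ range (n + 1), (-1) ^ (n - k) * (H k * hessD H (n - k) 0) = if n = 0 then 1 else 0 := by
  rcases n with _ | n
  · simp [h0, hessD_zero]
  rw [sum_range_succ', if_neg n.succ_ne_zero, h0, one_mul, tsub_zero, hessD_eq H h0, mul_sum,
    ← sum_add_distrib]
  refine sum_eq_zero fun k hk => ?_
  obtain ⟨j, rfl⟩ := Nat.exists_eq_add_of_le (Nat.lt_succ_iff.1 (mem_range.1 hk))
  rw [← mul_assoc (_ ^ (k + j + 1)), ← pow_add, show k + j + 1 + k = j + (2 * k + 1) by ring, pow_add,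
    (odd_two_mul_add_one k).neg_one_pow]
  simp

end Det

/-- `φ` is the Möbius function `μ(⊥, ·)`. -/
def IsMob {L : Type*} [PartialOrder L] [OrderBot L] [Finite L] (φ : L → ℂ) : Prop :=
  ∀ W, ∑ U ∈ (Set.toFinite (Set.Iic W)).toFinset, φ U = if W = ⊥ then 1 else 0

theorem IsMob.comp {L L' : Type*} [PartialOrder L] [OrderBot L] [Finite L] [PartialOrder L']
    [OrderBot L'] [Finite L'] {φ : L → ℂ} (h : IsMob φ) (f : L' → L) (hf : ∀ a b, f a ≤ f b ↔ a ≤ b)
    (h0 : f ⊥ = ⊥) (hs : ∀ U W, U ≤ f W → ∃ U', f U' = U) : IsMob (φ ∘ f) := by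
  have hi : Function.Injective f := fun a b e => le_antisymm ((hf _ _).1 e.le) ((hf _ _).1 e.ge)
  intro W
  rw [show (if W = ⊥ then 1 else 0 : ℂ) = if f W = ⊥ then 1 else 0 by rw [← h0]; simp [hi.eq_iff],
    ← h (f W)]
  refine sum_bij (fun U _ => f U) (by simp [hf]) (fun _ _ _ _ e => hi e) (fun U hU => ?_)
    fun _ _ => rfl
  obtain ⟨U', rfl⟩ := hs U W (by simpa using hU)
  exact ⟨U', by simpa [hf] using hU, rfl⟩

/-- Weisner's theorem. -/
theorem IsMob.weisner {L : Type*} [SemilatticeSup L] [OrderBot L] [Fintype L] {φ : L → ℂ}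
    (h : IsMob φ) {a : L} (ha : a ≠ ⊥) (y : L) : ∑ x with x ⊔ a = y, φ x = 0 := by
  induction y using WellFoundedLT.induction with
  | ind y ih =>
  by_cases hy : a ≤ y
  swap
  · exact sum_eq_zero fun x hx => absurd ((mem_filter.1 hx).2 ▸ le_sup_right) hy
  have h1 := h y
  rw [if_neg (by rintro rfl; exact ha (le_bot_iff.1 hy)), ← sum_fiberwise_of_maps_to
    (t := (Set.toFinite (Set.Iic y)).toFinset) (g := fun x => x ⊔ a) (by simp +contextual [hy]),
    sum_eq_single_of_mem y (by simp) fun z hz hzy => ?_] at h1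
  · rw [← h1]
    exact sum_congr (by ext x; simpa using fun e : x ⊔ a = y => e ▸ le_sup_left) fun _ _ => rfl
  · have hz : z ≤ y := by simpa using hz
    rw [← ih z (lt_of_le_of_ne hz hzy)]
    exact sum_congr (by ext x; simpa using fun e : x ⊔ a = z => (e ▸ le_sup_left : x ≤ z).trans hz)
      fun _ _ => rfl

section Chain
variable {L : Type*} [PartialOrder L] [Fintype L] [DecidableEq L] (d : L → ℕ)

/-- The step matrix of a graded poset. -/
noncomputable def stepM (k : ℕ) : Matrix L L ℂ :=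
  Matrix.of fun U W => if U ≤ W ∧ d W = d U + k then 1 else 0

variable {d} (hd : StrictMono d)
include hd

theorem stepM_zero : stepM d 0 = 1 := by
  ext U W
  simp only [stepM, Matrix.of_apply, Matrix.one_apply, add_zero]
  exact if_congr ⟨fun h => h.1.eq_of_not_lt fun e => (hd e).ne' h.2, by rintro rfl; simp⟩ rfl rfl

theorem isMob_hessD [OrderBot L] (h0 : d ⊥ = 0) :
    IsMob fun W => (-1) ^ d W * hessD (stepM d) (d W) 0 ⊥ W := by
  let ζ : Matrix L L ℂ := Matrix.of fun U W => if U ≤ W then 1 else 0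
  let ε : Matrix L L ℂ := Matrix.of fun U W => (-1) ^ (d W - d U) * hessD (stepM d) (d W - d U) 0 U W
  have h1 : ζ * ε = 1 := by
    ext U W
    have h2 := congrFun (congrFun (sum_hessD (stepM d) (stepM_zero hd) (d W - d U)) U) W
    have h3 : ∀ (m : ℕ) (B : Matrix L L ℂ), ((-1) ^ m * B) U W = (-1) ^ m * B U W := fun m B => by
      rcases neg_one_pow_eq_or ℂ m with e | e <;> rcases Nat.even_or_odd m with e' | e' <;>
        simp [e'.neg_one_pow]
    simp only [Matrix.sum_apply, h3, Matrix.mul_apply, stepM, Matrix.of_apply, mul_sum] at h2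
    rw [sum_comm] at h2
    rw [show (1 : Matrix L L ℂ) U W = _ from Eq.trans ?_ h2.symm, Matrix.mul_apply]
    · refine sum_congr rfl fun Z _ => ?_
      simp only [ζ, ε, Matrix.of_apply]
      by_cases hZ : U ≤ Z
      swap
      · simp [hZ]
      have h4 := hd.monotone hZ
      by_cases h5 : d Z ≤ d W
      · rw [sum_eq_single_of_mem (d Z - d U) (mem_range.2 (by omega)) fun k _ hk => by
          rw [if_neg (by omega)]; simp]
        rw [if_pos hZ, if_pos ⟨hZ, by omega⟩, show d W - d U - (d Z - d U) = d W - d Z by omega]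
        simp [stepM]
      · rw [sum_eq_zero fun k hk => ?_, show d W - d Z = 0 by omega, hessD_zero,
          Matrix.one_apply_ne (by rintro rfl; omega), mul_zero, mul_zero]
        have := mem_range.1 hk
        by_cases h6 : d Z = d U + k
        · rw [show d W - d U - k = 0 by omega, hessD_zero, Matrix.one_apply_ne (by rintro rfl; omega)]
          simp
        · simp [h6]
    · split_ifs with h4
      · rfl
      · exact Matrix.one_apply_ne (by rintro rfl; omega)
  intro W
  have h2 : (ε * ζ) ⊥ W = (1 : Matrix L L ℂ) ⊥ W := by rw [mul_eq_one_comm.1 h1]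
  simp only [Matrix.mul_apply, ζ, ε, Matrix.of_apply, h0, tsub_zero, mul_ite, mul_one, mul_zero,
    Matrix.one_apply, ← sum_filter] at h2
  rw [eq_comm (a := W)]
  convert h2 using 2
  ext; simp

theorem prod_stepM [OrderTop L] {r : ℕ} (μ : Fin r → ℕ) (U : L) (h : d U + ∑ a, μ a = d ⊤) :
    (List.ofFn fun a => stepM d (μ a)).prod U ⊤ = Nat.card {c : Fin r → L //
      Monotone c ∧ ∀ a, U ≤ c a ∧ d (c a) = d U + ∑ k with k ≤ a, μ k} := by
  induction r generalizing U with
  | zero =>
    obtain rfl : U = ⊤ := le_top.eq_of_not_lt fun e => (hd e).ne (by simpa using h)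
    simp [Monotone]
  | succ r ih =>
    have h1 : ∑ k with k ≤ (0 : Fin (r + 1)), μ k = μ 0 := by simp [sum_filter, Fin.sum_univ_succ]
    have h2 : ∀ a : Fin r, ∑ k with k ≤ a.succ, μ k = μ 0 + ∑ k with k ≤ a, μ (Fin.succ k) :=
      fun a => by simp [sum_filter, Fin.sum_univ_succ]
    let e : {c : Fin (r + 1) → L // Monotone c ∧ ∀ a, U ≤ c a ∧ d (c a) = d U + ∑ k with k ≤ a, μ k} ≃
        Σ Z : {Z // U ≤ Z ∧ d Z = d U + μ 0}, {c : Fin r → L //
          Monotone c ∧ ∀ a, Z.1 ≤ c a ∧ d (c a) = d Z + ∑ k with k ≤ a, μ (Fin.succ k)} :=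
      { toFun c := ⟨⟨c.1 0, (c.2.2 0).1, by rw [(c.2.2 0).2, h1]⟩, Fin.tail c.1,
          c.2.1.comp Fin.strictMono_succ.monotone, fun a => ⟨c.2.1 (Fin.zero_le _), by
            rw [Fin.tail, (c.2.2 _).2, (c.2.2 0).2, h1, h2, add_assoc]⟩⟩
        invFun c := ⟨Fin.cons c.1.1 c.2.1, fun i j => Fin.cases (Fin.cases (fun _ => le_rfl)
            (fun a _ => (c.2.2.2 a).1) j) (fun a => Fin.cases (fun h => absurd h (by simp))
            (fun b h => c.2.2.1 (Fin.succ_le_succ_iff.1 h)) j) i,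
          Fin.cases ⟨c.1.2.1, by rw [h1]; exact c.1.2.2⟩ fun a => ⟨c.1.2.1.trans (c.2.2.2 a).1, by
            rw [h2, ← add_assoc]; exact (c.2.2.2 a).2.trans (congrArg (· + _) c.1.2.2)⟩⟩
        left_inv c := Subtype.ext (Fin.cons_self_tail c.1)
        right_inv c := rfl }
    rw [Nat.card_congr e, Nat.card_sigma, List.ofFn_succ, List.prod_cons, Matrix.mul_apply]
    simp only [stepM, Matrix.of_apply, ite_mul, one_mul, zero_mul, ← sum_filter]
    rw [sum_subtype (p := fun Z => U ≤ Z ∧ d Z = d U + μ 0) _ (by simp), Nat.cast_sum]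
    exact sum_congr rfl fun Z _ => ih _ _ (by rw [Z.2.2, ← h, Fin.sum_univ_succ, add_assoc])

end Chain

section Module
variable {R : Type*} [Ring R]

instance instFiniteSubmoduleOfFinite {M : Type*} [AddCommGroup M] [Module R M] [Finite M] :
    Finite (Submodule R M) := Finite.of_injective _ SetLike.coe_injective

theorem IsMob.map {M M' : Type*} [AddCommGroup M] [Module R M] [Finite M] [AddCommGroup M']
    [Module R M'] [Finite M'] {φ : Submodule R M → ℂ} (h : IsMob φ) (g : M' →ₗ[R] M)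
    (hg : Function.Injective g) : IsMob fun U : Submodule R M' => φ (U.map g) :=
  h.comp (Submodule.map g) (Submodule.map_le_map_iff_of_injective hg) (Submodule.map_bot g)
    fun U _ hU => ⟨U.comap g, Submodule.map_comap_eq_of_le (hU.trans LinearMap.map_le_range)⟩

theorem IsMob.prod {N M : Type*} [AddCommGroup N] [Module R N] [Finite N] [IsSimpleModule R N]
    [AddCommGroup M] [Module R M] [Finite M] {c : ℂ}
    (hc : ∀ ψ : Submodule R M → ℂ, IsMob ψ → ψ ⊤ = c) {φ : Submodule R (N × M) → ℂ} (h : IsMob φ) :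
    φ ⊤ = -(Nat.card (M →ₗ[R] N) * c) := by
  have := Fintype.ofFinite (Submodule R (N × M))
  have : Finite (M →ₗ[R] N) := DFunLike.finite _
  have := Fintype.ofFinite (M →ₗ[R] N)
  have := IsSimpleModule.nontrivial R N
  have h1 := h.weisner (a := LinearMap.range (LinearMap.inl R N M)) (by
    obtain ⟨x, hx⟩ := exists_ne (0 : N)
    exact fun e => hx (congrArg Prod.fst ((Submodule.eq_bot_iff _).1 e _ ⟨x, rfl⟩))) ⊤
  have hi : ∀ f : M →ₗ[R] N, Function.Injective (f.prod LinearMap.id) :=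
    fun f x y e => congrArg Prod.snd e
  rw [← add_sum_erase _ _ (a := ⊤) (by simp), add_eq_zero_iff_eq_neg] at h1
  rw [h1, Nat.card_eq_fintype_card, ← nsmul_eq_mul, ← card_univ, ← sum_const, neg_inj]
  symm
  refine sum_bij (fun f _ => LinearMap.range (f.prod LinearMap.id)) (fun f _ => ?_)
    (fun f _ g _ e => LinearMap.ext fun x => ?_) (fun U hU => ?_) fun f _ => ?_
  · refine mem_erase.2 ⟨fun e => ?_, mem_filter.2 ⟨mem_univ _, eq_top_iff.2 fun z _ => ?_⟩⟩
    · obtain ⟨x, hx⟩ := exists_ne (0 : N)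
      obtain ⟨y, hy⟩ : (x, 0) ∈ LinearMap.range (f.prod LinearMap.id) := e ▸ Submodule.mem_top
      obtain rfl : y = 0 := congrArg Prod.snd hy
      exact hx (by simpa using (congrArg Prod.fst hy).symm)
    · exact Submodule.mem_sup.2 ⟨_, ⟨z.2, rfl⟩, _, ⟨z.1 - f z.2, rfl⟩, by simp⟩
  · obtain ⟨y, hy⟩ : (f x, x) ∈ LinearMap.range (g.prod LinearMap.id) := e ▸ ⟨x, rfl⟩
    obtain rfl : y = x := congrArg Prod.snd hy
    exact (congrArg Prod.fst hy).symm
  · obtain ⟨h2, h3⟩ := mem_erase.1 hU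
    have h4 := (mem_filter.1 h3).2
    have h5 : U.comap (LinearMap.inl R N M) = ⊥ := (eq_bot_or_eq_top _).resolve_right fun e =>
      h2 (by rw [← h4, left_eq_sup, LinearMap.range_le_iff_comap, e])
    have h6 : Function.Bijective (LinearMap.snd R N M ∘ₗ U.subtype) := by
      refine ⟨(injective_iff_map_eq_zero _).2 ?_, fun y => ?_⟩
      · rintro ⟨⟨x, y⟩, hz⟩ (rfl : y = 0)
        obtain rfl : x = 0 := (Submodule.eq_bot_iff _).1 h5 x hz
        rfl
      · obtain ⟨u, hu, _, ⟨x, rfl⟩, e⟩ := Submodule.mem_sup.1 (h4.ge (Submodule.mem_top (x := (0, y))))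
        exact ⟨⟨u, hu⟩, by simpa using congrArg Prod.snd e⟩
    let e := LinearEquiv.ofBijective _ h6
    have h7 : ∀ y, ((LinearMap.fst R N M ∘ₗ U.subtype ∘ₗ e.symm.toLinearMap).prod LinearMap.id) y =
        (e.symm y).1 := fun y => Prod.ext rfl (e.apply_symm_apply y).symm
    refine ⟨LinearMap.fst R N M ∘ₗ U.subtype ∘ₗ e.symm.toLinearMap, mem_univ _,
      le_antisymm ?_ fun u hu => ⟨e ⟨u, hu⟩, by rw [h7, e.symm_apply_apply]⟩⟩
    rintro _ ⟨y, rfl⟩
    exact h7 y ▸ (e.symm y).2
  · rw [← hc _ (h.map _ (hi f)), Submodule.map_top]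

end Module

section Poly
variable {F : Type*} [Field F] [Finite F]

theorem card_quot_span {a : F[X]} (h : a.Monic) :
    Nat.card (F[X] ⧸ Ideal.span {a}) = Nat.card F ^ a.natDegree := by
  have : Module.Finite F (F[X] ⧸ Ideal.span {a}) := (AdjoinRoot.powerBasis' h).finite
  rw [Module.natCard_eq_pow_finrank (K := F), finrank_quotient_span_eq_natDegree' h]

theorem finite_quot_span {a : F[X]} (h : a.Monic) : Finite (F[X] ⧸ Ideal.span {a}) :=
  Nat.finite_of_card_ne_zero (by rw [card_quot_span h]; exact pow_ne_zero _ Nat.card_pos.ne')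

omit [Finite F] in
theorem isSimpleModule_quot_span {a : F[X]} (h : Irreducible a) :
    IsSimpleModule F[X] (F[X] ⧸ Ideal.span {a}) :=
  isSimpleModule_iff_isCoatom.2 (PrincipalIdealRing.isMaximal_of_irreducible h).out

theorem card_hom_quot_span {a b : F[X]} (ha : a.Monic ∧ Irreducible a)
    (hb : b.Monic ∧ Irreducible b) :
    Nat.card ((F[X] ⧸ Ideal.span {a}) →ₗ[F[X]] (F[X] ⧸ Ideal.span {b})) =
      Nat.card F ^ if a = b then b.natDegree else 0 := by
  have h0 : ∀ (c p : F[X]) (x : F[X] ⧸ Ideal.span {c}), p • x = Ideal.Quotient.mk _ p * x :=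
    fun c p x => by obtain ⟨y, rfl⟩ := Ideal.Quotient.mk_surjective x; rfl
  have h1 : ∀ (f : (F[X] ⧸ Ideal.span {a}) →ₗ[F[X]] (F[X] ⧸ Ideal.span {b})) (p : F[X]),
      f (Ideal.Quotient.mk _ p) = p • f 1 := fun f p => by rw [← map_smul, h0, mul_one]
  split_ifs with h
  · subst h
    rw [← card_quot_span ha.1]
    refine Nat.card_congr (Equiv.ofBijective (fun f => f 1) ⟨fun f g e => LinearMap.ext fun x => ?_,
      fun y => ⟨LinearMap.mulLeft _ y, mul_one y⟩⟩)
    obtain ⟨p, rfl⟩ := Ideal.Quotient.mk_surjective x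
    rw [h1, h1]; exact congrArg _ e
  · rw [pow_zero, Nat.card_eq_one_iff_unique]
    refine ⟨subsingleton_of_forall_eq 0 fun f => LinearMap.ext fun x => ?_, ⟨0⟩⟩
    obtain ⟨p, rfl⟩ := Ideal.Quotient.mk_surjective x
    obtain ⟨u, v, huv⟩ : IsCoprime a b := (ha.2.coprime_iff_not_dvd).2 fun e =>
      h (eq_of_monic_of_associated ha.1 hb.1 (ha.2.associated_of_dvd hb.2 e))
    have h2 : a • f 1 = 0 := by
      rw [← h1, Ideal.Quotient.eq_zero_iff_mem.2 (Ideal.mem_span_singleton_self a), map_zero]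
    have h3 : b • f 1 = 0 := by
      rw [h0, Ideal.Quotient.eq_zero_iff_mem.2 (Ideal.mem_span_singleton_self b), zero_mul]
    rw [h1, ← one_smul F[X] (f 1), ← huv, add_smul, mul_smul, mul_smul, h2, h3]
    simp

/-- The value of the Möbius function of a semisimple module. -/
noncomputable def mobVal (q : ℕ) (s : Multiset F[X]) : ℂ :=
  ∏ f ∈ s.toFinset, (-1) ^ s.count f * (q : ℂ) ^ (f.natDegree * (s.count f).choose 2)

omit [Finite F] in
theorem mobVal_cons (q : ℕ) (f : F[X]) (s : Multiset F[X]) :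
    mobVal q (f ::ₘ s) = -(q ^ (f.natDegree * s.count f) * mobVal q s) := by
  have h1 : mobVal q s = ∏ g ∈ insert f s.toFinset,
      (-1) ^ s.count g * (q : ℂ) ^ (g.natDegree * (s.count g).choose 2) :=
    prod_subset (subset_insert _ _) fun g _ hg => by
      simp [Multiset.count_eq_zero.2 (mt Multiset.mem_toFinset.2 hg)]
  rw [h1, mobVal, Multiset.toFinset_cons, ← mul_prod_erase _ _ (mem_insert_self f _),
    ← mul_prod_erase _ _ (mem_insert_self f _), Multiset.count_cons_self, Nat.choose_succ_succ,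
    Nat.choose_one_right, prod_congr rfl fun g hg => by
      rw [Multiset.count_cons_of_ne (mem_erase.1 hg).1]]
  ring

theorem IsMob.eq_mobVal {k : ℕ} (a : Fin k → F[X]) (ha : ∀ i, (a i).Monic ∧ Irreducible (a i))
    [Finite (∀ i, F[X] ⧸ Ideal.span {a i})]
    (φ : Submodule F[X] (∀ i, F[X] ⧸ Ideal.span {a i}) → ℂ) (h : IsMob φ) :
    φ ⊤ = mobVal (Nat.card F) (univ.val.map a) := by
  induction k with
  | zero =>
    have h1 := h ⊥
    rw [sum_eq_single_of_mem ⊥ (by simp) (by simp +contextual), if_pos rfl] at h1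
    rw [Subsingleton.elim ⊤ ⊥, h1]
    simp [mobVal]
  | succ k ih =>
    have := fun i => finite_quot_span (ha i).1
    have := isSimpleModule_quot_span (ha 0).2
    let e := Fin.consLinearEquiv F[X] fun i => F[X] ⧸ Ideal.span {a i}
    have h1 := (h.map e.toLinearMap e.injective).prod (ih (fun i => a i.succ) fun i => ha _)
    rw [Submodule.map_top, LinearEquiv.range, ← Nat.card_congr (LinearMap.lsum F[X]
      (fun i : Fin k => F[X] ⧸ Ideal.span {a i.succ}) ℕ).toEquiv, Nat.card_pi] at h1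
    rw [h1, Fin.univ_succ, cons_val, Multiset.map_cons, mobVal_cons, map_val, Multiset.map_map,
      prod_congr rfl fun i _ => card_hom_quot_span (ha _) (ha 0), prod_pow_eq_pow_sum, ← sum_filter,
      sum_const, Multiset.count_map, smul_eq_mul, mul_comm (a 0).natDegree, Nat.cast_pow]
    simp only [eq_comm (a := a 0)]
    rfl

end Poly

end CF.Classical
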