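import Cfsg.Agent.Classical.SL2Schur
import Cfsg.Prelude.Def_LocalEven

/-! Normal form of a faithful natural `SL₂(F)`-module inside a finite group. -/

set_option autoImplicit false

open MulAction Subgroup Matrix
open scoped MatrixGroups commutatorElement Pointwise

namespace CF.Classical

variable {G : Type*} [Group G] {F : Type*} [Field F]

/-- `V = φ(F²)`, `L ≅ SL₂(F)` via `ρ`, `T` corresponds to the upper unitriangular group. -/
structure NatForm (V L T : Subgroup G) (ρ : G → SL(2, F)) (φ : (Fin 2 → F) → G) : Prop where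
  inj : Function.Injective φ
  mem : ∀ g, g ∈ V ↔ ∃ x, φ x = g
  add : ∀ x y, φ (x + y) = φ x * φ y
  ρmul : ∀ g ∈ L, ∀ h ∈ L, ρ (g * h) = ρ g * ρ h
  ρsurj : ∀ m, ∃ g ∈ L, ρ g = m
  ρinj : ∀ g ∈ L, ρ g = 1 → g = 1
  conj : ∀ l ∈ L, ∀ x, l * φ x * l⁻¹ = φ ((ρ l : Matrix (Fin 2) (Fin 2) F) *ᵥ x)
  memT : ∀ g, g ∈ T ↔ g ∈ L ∧ ∃ t, ρ g = sbor 1 t

theorem sl2_mulVec_mulVec (a b : SL(2, F)) (x : Fin 2 → F) :
    (a : Matrix (Fin 2) (Fin 2) F) *ᵥ ((b : Matrix (Fin 2) (Fin 2) F) *ᵥ x) =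
      ((a * b : SL(2, F)) : Matrix (Fin 2) (Fin 2) F) *ᵥ x := by
  rw [mulVec_mulVec]; rfl

theorem sl2_one_mulVec (x : Fin 2 → F) : ((1 : SL(2, F)) : Matrix (Fin 2) (Fin 2) F) *ᵥ x = x :=
  one_mulVec x

theorem charP_of_card_eq_pow [Finite F] {p : ℕ} [hp : Fact p.Prime] {n : ℕ}
    (hF : Nat.card F = p ^ n) : CharP F p := by
  have := Fintype.ofFinite F
  have hn : n ≠ 0 := by
    rintro rfl
    exact (Finite.one_lt_card (α := F)).ne' (by simpa using hF)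
  obtain ⟨r, hr⟩ := CharP.exists F
  obtain ⟨m, hr', hm⟩ := FiniteField.card F r
  rw [← Nat.card_eq_fintype_card, hF] at hm
  have : p ∣ r ^ (m : ℕ) := hm ▸ dvd_pow_self p hn
  rwa [(Nat.prime_dvd_prime_iff_eq hp.out hr').1 (hp.out.dvd_of_dvd_pow this)]

theorem sl2_pow_char_of_fix (p : ℕ) [CharP F p] (g : SL(2, F)) {y : Fin 2 → F} (hy : y ≠ 0)
    (e : (g : Matrix (Fin 2) (Fin 2) F) *ᵥ y = y) : g ^ p = 1 := by
  obtain ⟨a, b, c, d, h, rfl⟩ := exists_sl2 g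
  have e0 := congrFun e 0
  have e1 := congrFun e 1
  simp only [coe_sl2, mulVec, dotProduct, Fin.sum_univ_two, of_apply, cons_val', cons_val_zero,
    cons_val_one, cons_val_fin_one] at e0 e1
  have ht : a + d = 2 := by
    by_contra ht
    refine hy (funext (Fin.forall_fin_two.2 ⟨?_, ?_⟩))
    · exact (mul_eq_zero.1 (by linear_combination (1 - d) * e0 + b * e1 + y 0 * h :
        (a + d - 2) * y 0 = 0)).resolve_left (sub_ne_zero.2 ht)
    · exact (mul_eq_zero.1 (by linear_combination (1 - a) * e1 + c * e0 + y 1 * h :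
        (a + d - 2) * y 1 = 0)).resolve_left (sub_ne_zero.2 ht)
  have key : ∀ k : ℕ, sl2 a b c d h ^ k = sl2 (1 + k * (a - 1)) (k * b) (k * c) (1 + k * (d - 1))
      (by linear_combination (k : F) ^ 2 * h + (k - k ^ 2 : F) * ht) := fun k => by
    induction k with
    | zero => simp [one_eq_sl2]
    | succ k ih =>
      rw [pow_succ, ih, sl2_mul, sl2_eq_sl2_iff]
      push_cast
      exact ⟨by linear_combination k * a * ht - k * h, by linear_combination k * b * ht,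
        by linear_combination k * c * ht, by linear_combination k * d * ht - k * h⟩
  rw [key, one_eq_sl2, sl2_eq_sl2_iff]
  simp

theorem exists_natForm [Finite G] [Finite F] {p : ℕ} [hp : Fact p.Prime] {n : ℕ}
    (hF : Nat.card F = p ^ n) {V L : Subgroup G} (h : Cfsg.IsNaturalSL2Module F V L)
    (hf : L ⊓ centralizer (V : Set G) = ⊥) (S : Sylow p L) :
    ∃ (ρ : G → SL(2, F)) (φ : (Fin 2 → F) → G), NatForm V L (S.1.map L.subtype) ρ φ := by
  classical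
  obtain ⟨-, ρ, ψ, hs, hk, hc⟩ := h
  have hch : CharP F p := charP_of_card_eq_pow hF
  have hi : Function.Injective ρ := (injective_iff_map_eq_one ρ).2 fun g hg => by
    have h1 : g ∈ ρ.ker := hg
    rw [hk] at h1
    exact Subtype.ext (mem_bot.1 (hf ▸ (⟨g.2, h1⟩ : (g : G) ∈ L ⊓ centralizer (V : Set G))))
  have hU : IsPGroup p (upHom F).range := IsPGroup.of_card
    ((Nat.card_congr (MonoidHom.ofInjective upHom_injective).toEquiv).symm.trans hF)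
  let U : Sylow p SL(2, F) := hU.toSylow (not_dvd_index_upHom p)
  obtain ⟨c, hc'⟩ := exists_smul_eq SL(2, F) (S.mapSurjective hs) U
  have hm : ∀ m : SL(2, F), m ∈ (upHom F).range ↔ c⁻¹ * m * c ∈ S.1.map ρ := fun m => by
    change m ∈ (U : Subgroup SL(2, F)) ↔ _
    rw [← hc', Sylow.coe_subgroup_smul, mem_pointwise_smul_iff_inv_smul_mem]
    simp
  refine ⟨fun g => if hg : g ∈ L then c * ρ ⟨g, hg⟩ * c⁻¹ else 1,
    fun x => (ψ.symm (((c⁻¹ : SL(2, F)) : Matrix (Fin 2) (Fin 2) F) *ᵥ x)).toMul, ?_, ?_, ?_, ?_,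
    ?_, ?_, ?_, ?_⟩
  · intro x y e
    have h1 := ψ.symm.injective (Subtype.ext e)
    have h2 := congrArg ((c : Matrix (Fin 2) (Fin 2) F) *ᵥ ·) h1
    simpa only [sl2_mulVec_mulVec, mul_inv_cancel, sl2_one_mulVec] using h2
  · refine fun g => ⟨fun hg => ⟨(c : Matrix (Fin 2) (Fin 2) F) *ᵥ ψ (Additive.ofMul ⟨g, hg⟩), ?_⟩,
      by rintro ⟨x, rfl⟩; exact Subtype.property _⟩
    simp only [sl2_mulVec_mulVec, inv_mul_cancel, sl2_one_mulVec, AddEquiv.symm_apply_apply, toMul_ofMul]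
  · intro x y
    simp only [mulVec_add, map_add, toMul_add, Subgroup.coe_mul]
  · intro g hg h hh
    simp only [dif_pos hg, dif_pos hh, dif_pos (L.mul_mem hg hh)]
    rw [show (⟨g * h, L.mul_mem hg hh⟩ : L) = ⟨g, hg⟩ * ⟨h, hh⟩ from rfl, map_mul]; group
  · intro m
    obtain ⟨g, hg⟩ := hs (c⁻¹ * m * c)
    exact ⟨g, g.2, by simp only [dif_pos g.2, Subtype.coe_eta, hg]; group⟩
  · intro g hg e
    simp only [dif_pos hg, conj_eq_one_iff] at e
    exact congrArg Subtype.val (hi (e.trans ρ.map_one.symm))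
  · intro l hl x
    obtain ⟨w, hw, hw'⟩ := hc ⟨l, hl⟩ (ψ.symm (((c⁻¹ : SL(2, F)) : Matrix (Fin 2) (Fin 2) F) *ᵥ x)).toMul
    simp only [dif_pos hl]
    rw [← hw]
    simp only [ofMul_toMul, AddEquiv.apply_symm_apply, sl2_mulVec_mulVec] at hw'
    rw [sl2_mulVec_mulVec, show c⁻¹ * (c * ρ ⟨l, hl⟩ * c⁻¹) = ρ ⟨l, hl⟩ * c⁻¹ by group, ← hw']
    simp
  · intro g
    constructor
    · rintro ⟨g, hg, rfl⟩
      refine ⟨g.2, ?_⟩
      obtain ⟨t, ht⟩ := (hm (c * ρ g * c⁻¹)).2 ⟨g, hg, by group⟩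
      exact ⟨t.toAdd, by simp only [coe_subtype, dif_pos g.2, Subtype.coe_eta]; exact ht.symm⟩
    · rintro ⟨hg, t, ht⟩
      simp only [dif_pos hg] at ht
      obtain ⟨s, hs, e⟩ := (hm _).1 ⟨Multiplicative.ofAdd t, ht.symm⟩
      obtain rfl : s = ⟨g, hg⟩ := hi (e.trans (by group))
      exact ⟨_, hs, rfl⟩

theorem sbor_mulVec (a : Fˣ) (t : F) (x : Fin 2 → F) :
    (sbor a t : Matrix (Fin 2) (Fin 2) F) *ᵥ x = ![a * x 0 + t * x 1, (a⁻¹ : Fˣ) * x 1] := by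
  ext i; fin_cases i <;> simp [sbor, mulVec, dotProduct, Fin.sum_univ_two]

namespace NatForm

variable {V L T : Subgroup G} {ρ : G → SL(2, F)} {φ : (Fin 2 → F) → G} (h : NatForm V L T ρ φ)
include h

theorem zero : φ 0 = 1 := by simpa using h.add 0 0

theorem neg (x : Fin 2 → F) : φ (-x) = (φ x)⁻¹ :=
  eq_inv_of_mul_eq_one_left (by rw [← h.add, neg_add_cancel, h.zero])

theorem mem_V (x : Fin 2 → F) : φ x ∈ V := (h.mem _).2 ⟨x, rfl⟩

theorem ρone : ρ 1 = 1 := by simpa using h.ρmul 1 L.one_mem 1 L.one_mem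

theorem ρinv {g : G} (hg : g ∈ L) : ρ g⁻¹ = (ρ g)⁻¹ :=
  eq_inv_of_mul_eq_one_left (by rw [← h.ρmul _ (L.inv_mem hg) _ hg, inv_mul_cancel, h.ρone])

theorem comm_iff {l : G} (hl : l ∈ L) (x : Fin 2 → F) :
    l * φ x = φ x * l ↔ (ρ l : Matrix (Fin 2) (Fin 2) F) *ᵥ x = x := by
  rw [← mul_inv_eq_iff_eq_mul, h.conj l hl, h.inj.eq_iff]

theorem comm_T {s : G} (hs : s ∈ T) (h1 : s ≠ 1) (x : Fin 2 → F) :
    s * φ x = φ x * s ↔ x 1 = 0 := by
  obtain ⟨hl, t, ht⟩ := (h.memT s).1 hs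
  have t0 : t ≠ 0 := by rintro rfl; exact h1 (h.ρinj s hl (ht.trans sbor_one_zero))
  rw [h.comm_iff hl, ht, sbor_mulVec, funext_iff, Fin.forall_fin_two]
  simp [t0]

theorem exists_T (t : F) : ∃ s ∈ T, ρ s = sbor 1 t :=
  let ⟨s, hs, e⟩ := h.ρsurj (sbor 1 t); ⟨s, (h.memT s).2 ⟨hs, t, e⟩, e⟩

theorem mem_cent (x : Fin 2 → F) : φ x ∈ centralizer (T : Set G) ↔ x 1 = 0 := by
  constructor
  · intro hx
    obtain ⟨s, hs, e⟩ := h.exists_T 1
    refine (h.comm_T hs ?_ x).1 (hx s hs)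
    rintro rfl
    rw [h.ρone, ← sbor_one_zero, sbor_eq_iff] at e
    exact zero_ne_one e.2
  · intro hx s hs
    by_cases h1 : s = 1
    · simp [h1]
    · exact (h.comm_T hs h1 x).2 hx

theorem mem_C (g : G) : g ∈ V ⊓ centralizer (T : Set G) ↔ ∃ a, φ ![a, 0] = g := by
  constructor
  · rintro ⟨hg, hc⟩
    obtain ⟨x, rfl⟩ := (h.mem g).1 hg
    refine ⟨x 0, congrArg φ ?_⟩
    ext i; fin_cases i
    · rfl
    · exact ((h.mem_cent x).1 hc).symm
  · rintro ⟨a, rfl⟩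
    exact ⟨h.mem_V _, (h.mem_cent _).2 rfl⟩

theorem comm_eq {s : G} (hs : s ∈ L) {t : F} (ht : ρ s = sbor 1 t) (x : Fin 2 → F) :
    φ x * s * (φ x)⁻¹ * s⁻¹ = φ ![-(t * x 1), 0] := by
  rw [mul_assoc, mul_assoc, ← mul_assoc s, ← h.neg, h.conj s hs, ← h.add, ht, sbor_mulVec]
  congr 1
  ext i; fin_cases i <;> simp

theorem commutator_le {A : Subgroup G} (hA : A ≤ T) : ⁅V, A⁆ ≤ V ⊓ centralizer (T : Set G) := by
  rw [Subgroup.commutator_le]
  intro v hv s hs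
  obtain ⟨x, rfl⟩ := (h.mem v).1 hv
  obtain ⟨hl, t, ht⟩ := (h.memT s).1 (hA hs)
  exact (h.mem_C _).2 ⟨_, (h.comm_eq hl ht x).symm⟩

theorem le_commutator {A : Subgroup G} {s : G} (hs : s ∈ T) (h1 : s ≠ 1) (hA : s ∈ A) :
    V ⊓ centralizer (T : Set G) ≤ ⁅V, A⁆ := by
  intro g hg
  obtain ⟨a, rfl⟩ := (h.mem_C g).1 hg
  obtain ⟨hl, t, ht⟩ := (h.memT s).1 hs
  have t0 : t ≠ 0 := by rintro rfl; exact h1 (h.ρinj s hl (ht.trans sbor_one_zero))
  have := h.comm_eq hl ht ![0, -(a / t)]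
  rw [show -(t * (![0, -(a / t)] : Fin 2 → F) 1) = a by simp; field_simp] at this
  rw [← this]
  exact commutator_mem_commutator (h.mem_V _) hA

theorem card_V : Nat.card V = Nat.card F ^ 2 := by
  rw [← Nat.card_congr (Equiv.ofBijective (fun x => (⟨φ x, h.mem_V x⟩ : V))
    ⟨fun x y e => h.inj (congrArg Subtype.val e),
      fun g => let ⟨x, e⟩ := (h.mem g).1 g.2; ⟨x, Subtype.ext e⟩⟩), Nat.card_fun]
  simp

theorem card_C : Nat.card ↥(V ⊓ centralizer (T : Set G)) = Nat.card F :=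
  (Nat.card_congr (Equiv.ofBijective
    (fun a => (⟨φ ![a, 0], (h.mem_C _).2 ⟨a, rfl⟩⟩ : ↥(V ⊓ centralizer (T : Set G))))
    ⟨fun _ _ e => congrFun (h.inj (congrArg Subtype.val e)) 0,
      fun g => let ⟨x, e⟩ := (h.mem_C g).1 g.2; ⟨x, Subtype.ext e⟩⟩)).symm

theorem mem_normalizer [Finite G] {l : G} (hl : l ∈ L) {a : Fˣ} {t : F} (e : ρ l = sbor a t) :
    l ∈ normalizer (T : Set G) := by
  refine mem_normalizer_fintype fun s hs => ?_
  obtain ⟨hs, u, hu⟩ := (h.memT s).1 hs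
  refine (h.memT _).2 ⟨L.mul_mem (L.mul_mem hl hs) (L.inv_mem hl), a * u * a, ?_⟩
  rw [h.ρmul _ (L.mul_mem hl hs) _ (L.inv_mem hl), h.ρmul _ hl _ hs, h.ρinv hl, e, hu,
    mul_inv_eq_iff_eq_mul]
  simp [sbor_mul, add_comm]

end NatForm

end CF.Classical
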