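import Mathlib

/-! Kernel-checked certificates for subgroups of `GL₂(p)` acting regularly on non-zero vectors. -/

set_option autoImplicit false

open Matrix

namespace CF.Classical.RegVec

/-- The `k`-th 16-bit field of entry `v` of the table `T`. -/
def fld (T v k : ℕ) : ℕ := (T >>> (80 * v + 16 * k)) % 65536

/-- Index of the image of the vector with index `v`. -/
def act (p : ℕ) (g : ℕ × ℕ × ℕ × ℕ) (v : ℕ) : ℕ :=
  (g.1 * (v % p) + g.2.1 * (v / p)) % p + p * ((g.2.2.1 * (v % p) + g.2.2.2 * (v / p)) % p)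

/-- Closure test. -/
def clo (p T : ℕ) (g : ℕ × ℕ × ℕ × ℕ) (v : ℕ) : Bool :=
  fld T (act p g v) 0 % p == (g.1 * fld T v 0 + g.2.1 * fld T v 1) % p &&
  fld T (act p g v) 1 % p == (g.2.2.1 * fld T v 0 + g.2.2.2 * fld T v 1) % p

/-- Reachability test. -/
def rea (p T : ℕ) (gs : List (ℕ × ℕ × ℕ × ℕ)) (v : ℕ) : Bool :=
  v == 1 || (fld T v 3 < gs.length && (act p (gs.getD (fld T v 3) 0) (fld T v 2) == v &&
    (0 < fld T v 2 && (fld T v 2 < p * p && fld T (fld T v 2) 4 < fld T v 4))))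

/-- The full test. -/
def chk (p T : ℕ) (gs : List (ℕ × ℕ × ℕ × ℕ)) : Bool :=
  fld T 1 0 == 0 && fld T 1 1 == 1 &&
    (List.range (p * p)).all fun v => v == 0 || (rea p T gs v && gs.all fun g => clo p T g v)

variable {p : ℕ} [hp : Fact p.Prime]

/-- The matrix of a generator. -/
def gm (p : ℕ) (g : ℕ × ℕ × ℕ × ℕ) : Matrix (Fin 2) (Fin 2) (ZMod p) :=
  !![(g.1 : ZMod p), g.2.1; g.2.2.1, g.2.2.2]

/-- The vector with index `v`. -/
def vec (p v : ℕ) : Fin 2 → ZMod p := ![((v % p : ℕ) : ZMod p), ((v / p : ℕ) : ZMod p)]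

/-- The index of a vector. -/
def idx (x : Fin 2 → ZMod p) : ℕ := (x 0).val + p * (x 1).val

theorem vec_idx (x : Fin 2 → ZMod p) : vec p (idx x) = x := by
  ext i
  fin_cases i
  · simp [vec, idx]
  · simp [vec, idx, Nat.add_mul_div_left _ _ hp.out.pos, Nat.div_eq_of_lt (ZMod.val_lt (x 0))]

theorem idx_lt (x : Fin 2 → ZMod p) : idx x < p * p := by
  have h0 := ZMod.val_lt (x 0)
  have h1 := ZMod.val_lt (x 1)
  unfold idx
  nlinarith

theorem idx_ne_zero {x : Fin 2 → ZMod p} (h : x ≠ 0) : idx x ≠ 0 := fun e => h (by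
  rw [← vec_idx x, e]; ext i; fin_cases i <;> simp [vec])

theorem act_eq (g : ℕ × ℕ × ℕ × ℕ) (v : ℕ) : act p g v = idx (gm p g *ᵥ vec p v) := by
  simp only [act, idx, gm, vec, mulVec, dotProduct, Fin.sum_univ_two, of_apply, cons_val', cons_val_zero,
    cons_val_one, cons_val_fin_one, ← Nat.cast_mul, ← Nat.cast_add, ZMod.val_natCast]

theorem vec_one : vec p 1 = ![1, 0] := by
  simp [vec, Nat.mod_eq_of_lt hp.out.one_lt, Nat.div_eq_of_lt hp.out.one_lt]

theorem main {T : ℕ} {gs : List (ℕ × ℕ × ℕ × ℕ)} (h : chk p T gs = true)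
    {S : Set (GL (Fin 2) (ZMod p))} (h1 : ∀ s ∈ S, ∃ g ∈ gs, (s : Matrix (Fin 2) (Fin 2) (ZMod p)) = gm p g)
    (h2 : ∀ g ∈ gs, ∃ s ∈ S, (s : Matrix (Fin 2) (Fin 2) (ZMod p)) = gm p g) :
    Nat.card (Subgroup.closure S) = p ^ 2 - 1 ∧ ∀ v w : Fin 2 → ZMod p, v ≠ 0 → w ≠ 0 →
      ∃! h : Subgroup.closure S, ((h : GL (Fin 2) (ZMod p)) : Matrix (Fin 2) (Fin 2) (ZMod p)) *ᵥ v = w := by
  simp only [chk, Bool.and_eq_true, beq_iff_eq, List.all_eq_true, List.mem_range, Bool.or_eq_true]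
    at h
  obtain ⟨⟨t0, t1⟩, h⟩ := h
  set e : Fin 2 → ZMod p := ![1, 0] with he
  have he0 : e ≠ 0 := fun h => one_ne_zero (congrFun h 0)
  have hie : idx e = 1 := by simp [idx, he, ZMod.val_one]
  have hne : ∀ (g : GL (Fin 2) (ZMod p)) {v : Fin 2 → ZMod p}, v ≠ 0 →
      (g : Matrix (Fin 2) (Fin 2) (ZMod p)) *ᵥ v ≠ 0 := fun g v hv h => hv (by
    have := congrArg (((g⁻¹ : GL (Fin 2) (ZMod p)) : Matrix (Fin 2) (Fin 2) (ZMod p)) *ᵥ ·) h
    rwa [mulVec_mulVec, ← Units.val_mul, inv_mul_cancel, Units.val_one, one_mulVec,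
      mulVec_zero] at this)
  have A : ∀ x ∈ Subgroup.closure S, (x : Matrix (Fin 2) (Fin 2) (ZMod p)) 0 1 =
      fld T (idx ((x : Matrix (Fin 2) (Fin 2) (ZMod p)) *ᵥ e)) 0 ∧ (x : Matrix (Fin 2) (Fin 2) (ZMod p)) 1 1 =
      fld T (idx ((x : Matrix (Fin 2) (Fin 2) (ZMod p)) *ᵥ e)) 1 := fun x hx => by
    rw [← Subgroup.mem_toSubmonoid, Subgroup.closure_toSubmonoid_of_finite] at hx
    induction hx using Submonoid.closure_induction_left with
    | one => simp [hie, t0, t1]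
    | mul_left s hs x _ ih =>
      obtain ⟨g, hg, e1⟩ := h1 s hs
      have := ((h _ (idx_lt _)).resolve_left (idx_ne_zero (hne x he0))).2 g hg
      simp only [clo, Bool.and_eq_true, beq_iff_eq, act_eq, vec_idx] at this
      rw [Units.val_mul, ← mulVec_mulVec, e1, (ZMod.natCast_eq_natCast_iff' _ _ _).2 this.1,
        (ZMod.natCast_eq_natCast_iff' _ _ _).2 this.2]
      generalize fld T (idx ((x : Matrix (Fin 2) (Fin 2) (ZMod p)) *ᵥ e)) = t at ih
      simp [gm, mul_apply, ih.1, ih.2]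
  have B : ∀ x y : Subgroup.closure S, ((x : GL (Fin 2) (ZMod p)) : Matrix (Fin 2) (Fin 2) (ZMod p)) *ᵥ e =
      ((y : GL (Fin 2) (ZMod p)) : Matrix (Fin 2) (Fin 2) (ZMod p)) *ᵥ e → x = y := fun x y hxy => by
    have hx := A x x.2
    have hy := A y y.2
    rw [hxy] at hx
    have h0 := congrFun hxy 0
    have h1 := congrFun hxy 1
    simp only [he, mulVec, dotProduct, Fin.sum_univ_two, cons_val_zero, cons_val_one, mul_one,
      mul_zero, add_zero] at h0 h1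
    ext i j
    fin_cases i <;> fin_cases j
    exacts [h0, hx.1.trans hy.1.symm, h1, hx.2.trans hy.2.symm]
  have C : ∀ d v, v < p * p → v ≠ 0 → fld T v 4 = d → ∃ x : Subgroup.closure S,
      ((x : GL (Fin 2) (ZMod p)) : Matrix (Fin 2) (Fin 2) (ZMod p)) *ᵥ e = vec p v := fun d => by
    induction d using Nat.strong_induction_on with
    | _ d ih =>
    intro v hv hv0 hd
    have := ((h v hv).resolve_left hv0).1
    simp only [rea, Bool.or_eq_true, beq_iff_eq, Bool.and_eq_true, decide_eq_true_eq] at this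
    rcases this with rfl | ⟨a, b, c, hl, f⟩
    · exact ⟨1, by simp [vec_one, he]⟩
    obtain ⟨s, hs, e1⟩ := h2 (gs.getD (fld T v 3) 0) (by
      rw [List.getD_eq_getElem _ _ a]; exact List.getElem_mem a)
    obtain ⟨x, hx⟩ := ih _ (hd ▸ f) _ hl c.ne' rfl
    refine ⟨⟨s, Subgroup.subset_closure hs⟩ * x, ?_⟩
    rw [Subgroup.coe_mul, Units.val_mul, ← mulVec_mulVec, hx, e1, ← vec_idx (_ *ᵥ _),
      ← act_eq, b]
  have D : ∀ v : Fin 2 → ZMod p, v ≠ 0 → ∃ x : Subgroup.closure S,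
      ((x : GL (Fin 2) (ZMod p)) : Matrix (Fin 2) (Fin 2) (ZMod p)) *ᵥ e = v := fun v hv =>
    vec_idx v ▸ C _ _ (idx_lt v) (idx_ne_zero hv) rfl
  refine ⟨?_, fun v w hv hw => ?_⟩
  · have hb : Function.Bijective fun x : Subgroup.closure S =>
        (⟨((x : GL (Fin 2) (ZMod p)) : Matrix (Fin 2) (Fin 2) (ZMod p)) *ᵥ e, hne _ he0⟩ :
          {v : Fin 2 → ZMod p // v ≠ 0}) :=
      ⟨fun x y h => B x y (congrArg Subtype.val h), fun v =>
        (D v v.2).imp fun _ h => Subtype.ext h⟩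
    rw [Nat.card_eq_of_bijective _ hb]
    simp
  · obtain ⟨x, rfl⟩ := D v hv
    obtain ⟨y, rfl⟩ := D w hw
    refine ⟨y * x⁻¹, ?_, fun z hz => eq_mul_inv_iff_mul_eq.2 (B _ _ ?_)⟩
    · beta_reduce
      rw [mulVec_mulVec, ← Units.val_mul, ← Subgroup.coe_mul, inv_mul_cancel_right]
    rw [← hz, Subgroup.coe_mul, Units.val_mul, mulVec_mulVec]

end CF.Classical.RegVec
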